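import Mathlib
import Cfsg.Agent.H52.SoDefs
import Cfsg.Agent.H51.Amalgam
import Cfsg.Agent.H14.Thompson

/-!
# SO-CONJ (piece of S2943, for helper52): conjugates of `J(T)`-components by elements of `T`
are `J(T)`-components, and `W_{K^t} = (W_K)^t`.
-/

set_option autoImplicit false
open Cfsg

namespace Cfsg.Agent.H59.So

universe u

section
variable {G : Type u} [Group G]

theorem map_conj_self {T : Subgroup G} {t : G} (ht : t ∈ T) :
    T.map (MulAut.conj t).toMonoidHom = T := by
  ext x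
  constructor
  · rintro ⟨y, hy, rfl⟩
    simp only [MulEquiv.toMonoidHom_eq_coe, MonoidHom.coe_coe, MulAut.conj_apply]
    exact T.mul_mem (T.mul_mem ht hy) (T.inv_mem ht)
  · intro hx
    refine ⟨t⁻¹ * x * t, T.mul_mem (T.mul_mem (T.inv_mem ht) hx) ht, ?_⟩
    simp only [MulEquiv.toMonoidHom_eq_coe, MonoidHom.coe_coe, MulAut.conj_apply]
    group

theorem map_conj_inv_conj (t : G) (S : Subgroup G) :
    (S.map (MulAut.conj t⁻¹).toMonoidHom).map (MulAut.conj t).toMonoidHom = S := by
  rw [Subgroup.map_map]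
  ext x
  constructor
  · rintro ⟨y, hy, rfl⟩
    simp only [MulEquiv.toMonoidHom_eq_coe, MonoidHom.coe_comp, MonoidHom.coe_coe,
      Function.comp_apply, MulAut.conj_apply]
    have e : t * (t⁻¹ * y * t⁻¹⁻¹) * t⁻¹ = y := by group
    rw [e]; exact hy
  · intro hx
    refine ⟨x, hx, ?_⟩
    simp only [MulEquiv.toMonoidHom_eq_coe, MonoidHom.coe_comp, MonoidHom.coe_coe,
      Function.comp_apply, MulAut.conj_apply]
    group

theorem map_conj_conj_inv (t : G) (S : Subgroup G) :
    (S.map (MulAut.conj t).toMonoidHom).map (MulAut.conj t⁻¹).toMonoidHom = S := by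
  have h := map_conj_inv_conj t⁻¹ S
  rw [inv_inv] at h
  exact h

theorem omegaCenterOf_map_conj (g : G) (S : Subgroup G) :
    omegaCenterOf (S.map (MulAut.conj g).toMonoidHom) =
      (omegaCenterOf S).map (MulAut.conj g).toMonoidHom := by
  unfold omegaCenterOf
  exact (Cfsg.Agent.H14.omegaOne_center_conj 2 g S).symm

theorem wOf_map_conj (g : G) (K : Subgroup G) :
    wOf (K.map (MulAut.conj g).toMonoidHom) = (wOf K).map (MulAut.conj g).toMonoidHom := by
  unfold wOf
  rw [Cfsg.Agent.H51.pCoreOf_map 2 K (MulAut.conj g), omegaCenterOf_map_conj,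
    Subgroup.map_commutator]

theorem thompson_map_conj_self {T : Subgroup G} {t : G} (ht : t ∈ T) :
    (thompsonSubgroupOf 2 T).map (MulAut.conj t).toMonoidHom = thompsonSubgroupOf 2 T := by
  rw [Cfsg.Agent.H14.thompsonSubgroupOf_conj 2 t T, map_conj_self ht]

end

/-- SO-CONJ. -/
theorem conj : Cfsg.Agent.H52.Sn.StConj.{u} := by
  intro G _ _ T K t ht hK
  obtain ⟨h1, h2, h3, h4, h5, h6⟩ := hK
  have hinj : Function.Injective ((MulAut.conj t).toMonoidHom : G →* G) :=
    (MulAut.conj t).injective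
  have hJ := thompson_map_conj_self (T := T) ht
  have hJ' := thompson_map_conj_self (T := T) (T.inv_mem ht)
  have hW := wOf_map_conj t K
  refine ⟨⟨?_, ?_, ?_, ?_, ?_, ?_⟩, hW⟩
  · -- generated by odd-order elements
    have hs : ((MulAut.conj t).toMonoidHom '' {g : G | g ∈ K ∧ Odd (orderOf g)}) =
        {g : G | g ∈ K.map (MulAut.conj t).toMonoidHom ∧ Odd (orderOf g)} := by
      ext x
      constructor
      · rintro ⟨y, ⟨hy, hyo⟩, rfl⟩
        refine ⟨⟨y, hy, rfl⟩, ?_⟩
        rw [orderOf_injective _ hinj y]; exact hyo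
      · rintro ⟨⟨y, hy, rfl⟩, hxo⟩
        refine ⟨y, ⟨hy, ?_⟩, rfl⟩
        rw [← orderOf_injective _ hinj y]; exact hxo
    rw [← hs, ← MonoidHom.map_closure, h1]
  · -- K^t = [K^t, J]
    have h := Subgroup.map_commutator K (thompsonSubgroupOf 2 T) (MulAut.conj t).toMonoidHom
    rw [hJ, h2] at h
    exact h.symm
  · -- index of O₂
    rw [Cfsg.Agent.H51.pCoreOf_map 2 K (MulAut.conj t)]
    rw [Subgroup.relIndex_map_map_of_injective _ _ hinj]
    exact h3
  · -- Sylow clause
    intro S hS hJS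
    obtain ⟨hS1, hS2, hS3⟩ := hS
    have hsup : K.map (MulAut.conj t).toMonoidHom ⊔ thompsonSubgroupOf 2 T =
        (K ⊔ thompsonSubgroupOf 2 T).map (MulAut.conj t).toMonoidHom := by
      rw [Subgroup.map_sup, hJ]
    have hS' : IsSylowTwoIn (S.map (MulAut.conj t⁻¹).toMonoidHom) (K ⊔ thompsonSubgroupOf 2 T) := by
      refine ⟨?_, hS2.map _, ?_⟩
      · have := Subgroup.map_mono (f := (MulAut.conj t⁻¹).toMonoidHom) hS1
        rw [hsup, map_conj_conj_inv] at this
        exact this
      · rw [← Subgroup.relIndex_map_map_of_injective _ _ hinj, map_conj_inv_conj, ← hsup]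
        exact hS3
    have hJS' : thompsonSubgroupOf 2 T ≤ S.map (MulAut.conj t⁻¹).toMonoidHom := by
      have := Subgroup.map_mono (f := (MulAut.conj t⁻¹).toMonoidHom) hJS
      rw [hJ'] at this
      exact this
    have h := h4 _ hS' hJS'
    have h' := Cfsg.Agent.H14.thompsonSubgroupOf_conj 2 t (S.map (MulAut.conj t⁻¹).toMonoidHom)
    rw [map_conj_inv_conj, h, hJ] at h'
    exact h'.symm
  · rw [hW, Subgroup.card_map_of_injective hinj]
    exact h5
  · rw [hW]
    rintro _ ⟨w, hw, rfl⟩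
    rw [← map_mul, h6 w hw, map_one]

example : Cfsg.Agent.H52.Sn.StConj.{u} := conj

end Cfsg.Agent.H59.So

#print axioms Cfsg.Agent.H59.So.conj
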