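import Mathlib

/-!
# Abstract core of the weak-closure kill of configuration (R) (S2951 / S2952)

`Cfsg.Agent.H59.PushKill.pushKill`: pure group theory.  `V, T, Q, P ≤ G`, conjugates
`cj X g = g X g⁻¹`.  Hypotheses: (F1) two conjugates of `V`, one of which meets the normalizer of
the other nontrivially, commute elementwise; `V ≤ T ≤ P`, `T ≤ N_G(V)`, `Q ≤ T`, `P ≤ N_G(Q)`;
every conjugate of `V` inside `T` meets `Q` nontrivially; every subgroup `N ≤ P` normalized by `P`
with `N ⊔ Q ≤ N_G(V)` lies in `Q`.  Conclusion: the weak closure `F` of `V` in `T` is a nontrivial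
subgroup of `T` normalized by `N_G(T)` and by `P`.
-/

namespace Cfsg.Agent.H59.PushKill

variable {G : Type*} [Group G]

/-- The conjugate `g X g⁻¹`. -/
abbrev cj (X : Subgroup G) (g : G) : Subgroup G := X.map (MulAut.conj g).toMonoidHom

theorem mem_cj {X : Subgroup G} {g y : G} : y ∈ cj X g ↔ g⁻¹ * y * g ∈ X := by
  constructor
  · rintro ⟨x, hx, rfl⟩
    simpa [MulAut.conj_apply, mul_assoc] using hx
  · intro h
    exact ⟨g⁻¹ * y * g, h, by simp [MulAut.conj_apply, mul_assoc]⟩

theorem cj_one (X : Subgroup G) : cj X 1 = X := by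
  ext y; rw [mem_cj]; simp

theorem cj_cj (X : Subgroup G) (a b : G) : cj (cj X a) b = cj X (b * a) := by
  ext y; rw [mem_cj, mem_cj, mem_cj]; simp [mul_assoc]

theorem cj_mono {X Y : Subgroup G} (h : X ≤ Y) (g : G) : cj X g ≤ cj Y g :=
  Subgroup.map_mono h

theorem cj_eq_of_mem_normalizer {X : Subgroup G} {g : G}
    (hg : g ∈ Subgroup.normalizer (X : Set G)) : cj X g = X := by
  ext y
  rw [mem_cj]
  have h := (Subgroup.mem_normalizer_iff''.mp hg) y
  exact h.symm

theorem mem_normalizer_of_cj_le {F : Subgroup G} {n : G} (h1 : cj F n ≤ F) (h2 : cj F n⁻¹ ≤ F) :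
    n ∈ Subgroup.normalizer (F : Set G) := by
  rw [Subgroup.mem_normalizer_iff]
  intro h
  constructor
  · intro hh
    apply h1
    rw [mem_cj]
    simpa [mul_assoc] using hh
  · intro hh
    have := h2 (mem_cj.mpr (by simpa [mul_assoc] using hh) : n⁻¹ * (n * h * n⁻¹) * n ∈ cj F n⁻¹)
    simpa [mul_assoc] using this

/-- The abstract weak-closure kill. -/
theorem pushKill (V T Q P : Subgroup G)
    (hF1 : ∀ a b : G, cj V a ⊓ Subgroup.normalizer (cj V b : Set G) ≠ ⊥ →
      ∀ u ∈ cj V a, ∀ v ∈ cj V b, u * v = v * u)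
    (hVT : V ≤ T) (hTP : T ≤ P) (hTL : T ≤ Subgroup.normalizer (V : Set G)) (hQT : Q ≤ T)
    (hPQ : P ≤ Subgroup.normalizer (Q : Set G))
    (hmeet : ∀ g : G, cj V g ≤ T → cj V g ⊓ Q ≠ ⊥)
    (hN : ∀ N : Subgroup G, N ≤ P → (∀ x ∈ P, cj N x = N) →
      N ⊔ Q ≤ Subgroup.normalizer (V : Set G) → N ≤ Q) :
    ∃ F : Subgroup G, F ≠ ⊥ ∧ F ≤ T ∧
      Subgroup.normalizer (T : Set G) ≤ Subgroup.normalizer (F : Set G) ∧
      P ≤ Subgroup.normalizer (F : Set G) := by
  classical
  -- the weak closure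
  set F : Subgroup G := ⨆ (g : G) (_ : cj V g ≤ T), cj V g with hFdef
  have hVF : V ≤ F := by
    have h1 : cj V 1 ≤ T := by rw [cj_one]; exact hVT
    have : cj V 1 ≤ F := le_iSup₂ (f := fun (g : G) (_ : cj V g ≤ T) => cj V g) 1 h1
    rwa [cj_one] at this
  have hVne : V ≠ ⊥ := by
    intro h
    have := hmeet 1 (by rw [cj_one]; exact hVT)
    rw [cj_one, h] at this
    exact this (bot_inf_eq Q)
  have hFT : F ≤ T := iSup₂_le fun g hg => hg
  -- E and N
  set E : Subgroup G := ⨆ (x : G) (_ : x ∈ P), cj V x with hEdef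
  have hVE : V ≤ E := by
    have : cj V 1 ≤ E := le_iSup₂ (f := fun (x : G) (_ : x ∈ P) => cj V x) 1 P.one_mem
    rwa [cj_one] at this
  have hEP : ∀ x ∈ P, cj E x ≤ E := by
    intro x hx
    rw [hEdef]
    simp only [cj, Subgroup.map_iSup]
    refine iSup₂_le fun y hy => ?_
    have : cj (cj V y) x = cj V (x * y) := cj_cj V y x
    rw [show Subgroup.map (MulAut.conj x).toMonoidHom (Subgroup.map (MulAut.conj y).toMonoidHom V)
      = cj V (x * y) from this]
    exact le_iSup₂ (f := fun (x : G) (_ : x ∈ P) => cj V x) (x * y) (P.mul_mem hx hy)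
  set N : Subgroup G := P ⊓ Subgroup.centralizer (E : Set G) with hNdef
  have hNP : N ≤ P := inf_le_left
  have hNle : ∀ x ∈ P, cj N x ≤ N := by
    intro x hx n hn
    rw [mem_cj] at hn
    have hxn : n = x * (x⁻¹ * n * x) * x⁻¹ := by group
    refine Subgroup.mem_inf.mpr ⟨?_, ?_⟩
    · rw [hxn]; exact P.mul_mem (P.mul_mem hx hn.1) (P.inv_mem hx)
    · rw [Subgroup.mem_centralizer_iff]
      intro e he
      have he' : x⁻¹ * e * x ∈ E := by
        have := hEP x⁻¹ (P.inv_mem hx) (mem_cj.mpr (by simpa [mul_assoc] using he) :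
          x⁻¹ * e * x ∈ cj E x⁻¹)
        exact this
      have hc := (Subgroup.mem_centralizer_iff.mp hn.2) _ he'
      -- hc : x⁻¹ * e * x * (x⁻¹ * n * x) = x⁻¹ * n * x * (x⁻¹ * e * x)
      have : e * n = n * e := by
        have h2 : x * (x⁻¹ * e * x * (x⁻¹ * n * x)) * x⁻¹ = x * (x⁻¹ * n * x * (x⁻¹ * e * x)) * x⁻¹ := by
          rw [hc]
        simpa [mul_assoc] using h2
      exact this
  have hNeq : ∀ x ∈ P, cj N x = N := by
    intro x hx
    refine le_antisymm (hNle x hx) ?_
    intro n hn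
    have h1 : x⁻¹ * n * x ∈ N := by
      have := hNle x⁻¹ (P.inv_mem hx) (mem_cj.mpr (by simpa [mul_assoc] using hn) :
        x⁻¹ * n * x ∈ cj N x⁻¹)
      exact this
    exact mem_cj.mpr h1
  have hNL : N ⊔ Q ≤ Subgroup.normalizer (V : Set G) := by
    refine sup_le ?_ (hQT.trans hTL)
    intro n hn
    have h1 : n ∈ Subgroup.centralizer (V : Set G) :=
      Subgroup.centralizer_le (show (V : Set G) ⊆ E from hVE) hn.2
    exact Subgroup.centralizer_le_normalizer _ h1
  have hNQ : N ≤ Q := hN N hNP hNeq hNL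
  -- Q normalizes every `cj V x`, x ∈ P
  have hQnorm : ∀ x ∈ P, Q ≤ Subgroup.normalizer (cj V x : Set G) := by
    intro x hx q hq
    have hq' : x⁻¹ * q * x ∈ Q := by
      have hxn : x⁻¹ ∈ Subgroup.normalizer (Q : Set G) := hPQ (P.inv_mem hx)
      have := (Subgroup.mem_normalizer_iff.mp hxn q).mp hq
      simpa using this
    have hq'' : x⁻¹ * q * x ∈ Subgroup.normalizer (V : Set G) := hTL (hQT hq')
    rw [Subgroup.mem_normalizer_iff]
    intro h
    rw [mem_cj, mem_cj]
    have := (Subgroup.mem_normalizer_iff.mp hq'') (x⁻¹ * h * x)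
    rw [this]
    have e : x⁻¹ * q * x * (x⁻¹ * h * x) * (x⁻¹ * q * x)⁻¹ = x⁻¹ * (q * h * q⁻¹) * x := by group
    rw [e]
  -- key claim
  have key : ∀ g : G, cj V g ≤ T → cj V g ≤ Q := by
    intro g hg
    refine le_trans ?_ hNQ
    refine le_inf (hg.trans hTP) ?_
    rw [Subgroup.le_centralizer_iff]
    rw [hEdef]
    refine iSup₂_le fun x hx => ?_
    intro v hv
    rw [Subgroup.mem_centralizer_iff]
    intro u hu
    have hne : cj V g ⊓ Subgroup.normalizer (cj V x : Set G) ≠ ⊥ := by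
      intro h0
      apply hmeet g hg
      rw [eq_bot_iff] at h0 ⊢
      exact le_trans (inf_le_inf_left _ (hQnorm x hx)) h0
    exact hF1 g x hne u hu v hv
  refine ⟨F, ?_, hFT, ?_, ?_⟩
  · intro h
    apply hVne
    rw [eq_bot_iff]
    exact h ▸ hVF
  · -- N_G(T) normalizes F
    have hle : ∀ n ∈ Subgroup.normalizer (T : Set G), cj F n ≤ F := by
      intro n hn
      rw [hFdef]
      simp only [cj, Subgroup.map_iSup]
      refine iSup₂_le fun g hg => ?_
      rw [show Subgroup.map (MulAut.conj n).toMonoidHom (Subgroup.map (MulAut.conj g).toMonoidHom V)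
        = cj V (n * g) from cj_cj V g n]
      have h1 : cj V (n * g) ≤ T := by
        rw [← cj_cj]
        have := cj_mono hg n
        rwa [cj_eq_of_mem_normalizer hn] at this
      exact le_iSup₂ (f := fun (g : G) (_ : cj V g ≤ T) => cj V g) (n * g) h1
    intro n hn
    exact mem_normalizer_of_cj_le (hle n hn) (hle n⁻¹ (inv_mem hn))
  · -- P normalizes F
    have hle : ∀ x ∈ P, cj F x ≤ F := by
      intro x hx
      rw [hFdef]
      simp only [cj, Subgroup.map_iSup]
      refine iSup₂_le fun g hg => ?_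
      rw [show Subgroup.map (MulAut.conj x).toMonoidHom (Subgroup.map (MulAut.conj g).toMonoidHom V)
        = cj V (x * g) from cj_cj V g x]
      have h1 : cj V (x * g) ≤ T := by
        rw [← cj_cj]
        have := cj_mono (key g hg) x
        rw [cj_eq_of_mem_normalizer (hPQ hx)] at this
        exact this.trans hQT
      exact le_iSup₂ (f := fun (g : G) (_ : cj V g ≤ T) => cj V g) (x * g) h1
    intro x hx
    exact mem_normalizer_of_cj_le (hle x hx) (hle x⁻¹ (P.inv_mem hx))

end Cfsg.Agent.H59.PushKill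

#print axioms Cfsg.Agent.H59.PushKill.pushKill
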