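import Mathlib
import Cfsg.Agent.H59.PushKill

/-!
# The weak-closure kill of (R) with elementary hypotheses (S2951 / S2952)

* `index_eq_three`, `core_relIndex_le`, `normal_dichotomy`: a finite group `H = K T`, `K` normal,
  `T` a 2-group, `O ≤ K ⊓ T` of index 3 in `K`: `T` has index 3, its normal core has index `≤ 2`
  in `T`, and every normal subgroup lies in the core or contains all elements of odd order.
* `pstruct`: the same inside a group `G` for `P = K ⊔ T`.
* `rKill`: `pushKill` with `P = K ⊔ T`, `Q` the core of `T` in `P`.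
* `vLeCore`: step (1): `V ≤ O₂(L')`.
-/

namespace Cfsg.Agent.H59.PushKill

section LemmaA

variable {H : Type*} [Group H] [Finite H]

theorem index_eq_three (K T O : Subgroup H) [K.Normal] (hsup : K ⊔ T = ⊤) (hT : IsPGroup 2 T)
    (hOK : O ≤ K) (hOT : O ≤ T) (hO3 : O.relIndex K = 3) : T.index = 3 := by
  have h1 : O.relIndex (K ⊓ T) * (K ⊓ T).relIndex K = 3 := by
    rw [Subgroup.relIndex_mul_relIndex O (K ⊓ T) K (le_inf hOK hOT) inf_le_left, hO3]
  have hKT : ¬ K ≤ T := by
    intro hle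
    have hK2 : IsPGroup 2 K := hT.to_le hle
    obtain ⟨n, hn⟩ := IsPGroup.iff_card.mp hK2
    have h3 : 3 ∣ Nat.card K := by
      have := Subgroup.relIndex_mul_relIndex (⊥ : Subgroup H) O K bot_le hOK
      rw [Subgroup.relIndex_bot_left, Subgroup.relIndex_bot_left, hO3] at this
      exact Dvd.intro_left _ this
    rw [hn] at h3
    have := Nat.Prime.dvd_of_dvd_pow Nat.prime_three h3
    omega
  have h2 : (K ⊓ T).relIndex K = 3 := by
    have hd : (K ⊓ T).relIndex K ∣ 3 := Dvd.intro_left _ h1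
    rcases (Nat.dvd_prime Nat.prime_three).mp hd with h | h
    · exact absurd ((Subgroup.relIndex_eq_one.mp h).trans inf_le_right) hKT
    · exact h
  have c1 : Nat.card (K ⊓ T : Subgroup H) * (K ⊓ T).relIndex K = Nat.card K := by
    have := Subgroup.relIndex_mul_relIndex (⊥ : Subgroup H) (K ⊓ T) K bot_le inf_le_left
    rwa [Subgroup.relIndex_bot_left, Subgroup.relIndex_bot_left] at this
  have c2 : Nat.card (K ⊓ T : Subgroup H) * (K ⊓ T).relIndex T = Nat.card T := by
    have := Subgroup.relIndex_mul_relIndex (⊥ : Subgroup H) (K ⊓ T) T bot_le inf_le_right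
    rwa [Subgroup.relIndex_bot_left, Subgroup.relIndex_bot_left] at this
  have c3 : K.index = (K ⊓ T).relIndex T := by
    rw [← Subgroup.relIndex_top_right, ← hsup, sup_comm, Subgroup.relIndex_sup_right,
      Subgroup.inf_relIndex_right]
  have c4 : Nat.card K * K.index = Nat.card H := K.card_mul_index
  have c5 : Nat.card T * T.index = Nat.card H := T.card_mul_index
  have hTpos : 0 < Nat.card T := Nat.card_pos
  have : Nat.card T * T.index = Nat.card T * 3 := by
    rw [c5, ← c4, c3, ← c1, h2, ← c2]; ring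
  exact Nat.eq_of_mul_eq_mul_left hTpos this

theorem core_relIndex_le (T : Subgroup H) (h3 : T.index = 3) : T.normalCore.relIndex T ≤ 2 := by
  have hker : T.normalCore.index ∣ 6 := by
    rw [Subgroup.normalCore_eq_ker, Subgroup.index_ker]
    have h1 : Nat.card (MulAction.toPermHom H (H ⧸ T)).range ∣ Nat.card (Equiv.Perm (H ⧸ T)) :=
      Subgroup.card_subgroup_dvd_card _
    have h2 : Nat.card (Equiv.Perm (H ⧸ T)) = 6 := by
      rw [Nat.card_perm]
      have : Nat.card (H ⧸ T) = 3 := h3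
      rw [this]; rfl
    rwa [h2] at h1
  have hmul : T.normalCore.relIndex T * T.index = T.normalCore.index :=
    Subgroup.relIndex_mul_index (Subgroup.normalCore_le T)
  rw [h3] at hmul
  have h6 : T.normalCore.relIndex T * 3 ∣ 2 * 3 := by rw [hmul]; exact hker
  have h2 : T.normalCore.relIndex T ∣ 2 := Nat.dvd_of_mul_dvd_mul_right (by norm_num) h6
  exact Nat.le_of_dvd (by norm_num) h2

theorem normal_dichotomy (T : Subgroup H) (hT : IsPGroup 2 T) (h3 : T.index = 3)
    (N : Subgroup H) [N.Normal] : N ≤ T.normalCore ∨ ∀ g : H, Odd (orderOf g) → g ∈ N := by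
  by_cases hN : IsPGroup 2 N
  · left
    have hsup : IsPGroup 2 (T ⊔ N : Subgroup H) := IsPGroup.to_sup_of_normal_right hT hN
    have hd : T.relIndex (T ⊔ N) ∣ T.index := Subgroup.relIndex_dvd_index_of_le le_sup_left
    obtain ⟨n, hn⟩ := hsup.index (T.subgroupOf (T ⊔ N))
    have hrel : T.relIndex (T ⊔ N) = 2 ^ n := hn
    rw [h3, hrel] at hd
    have h1 : T.relIndex (T ⊔ N) = 1 := by
      rw [hrel]
      rcases Nat.eq_zero_or_pos n with h | h
      · rw [h]; rfl
      · exfalso
        have : 2 ∣ 3 := (dvd_pow_self 2 (by omega)).trans hd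
        omega
    have hle : T ⊔ N ≤ T := Subgroup.relIndex_eq_one.mp h1
    exact Subgroup.normal_le_normalCore.mpr (le_sup_right.trans hle)
  · right
    intro g hg
    obtain ⟨n, hn⟩ := IsPGroup.iff_card.mp hT
    have hH : Nat.card H = 3 * 2 ^ n := by rw [← T.card_mul_index, h3, hn]; ring
    have hNc : Nat.card N * N.index = 3 * 2 ^ n := by rw [N.card_mul_index, hH]
    have h3N : 3 ∣ Nat.card N := by
      by_contra h3'
      have hcop : Nat.Coprime (Nat.card N) 3 :=
        Nat.coprime_comm.mp ((Nat.Prime.coprime_iff_not_dvd Nat.prime_three).mpr h3')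
      have : Nat.card N ∣ 2 ^ n := by
        have hd : Nat.card N ∣ 3 * 2 ^ n := Dvd.intro _ hNc
        exact hcop.dvd_of_dvd_mul_left hd
      obtain ⟨m, -, hm⟩ := (Nat.dvd_prime_pow Nat.prime_two).mp this
      exact hN (IsPGroup.of_card hm)
    obtain ⟨a, ha⟩ := h3N
    have hidx : N.index ∣ 2 ^ n := by
      rw [ha] at hNc
      have : a * N.index = 2 ^ n := by
        have : 3 * (a * N.index) = 3 * 2 ^ n := by rw [← hNc]; ring
        exact Nat.eq_of_mul_eq_mul_left (by norm_num) this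
      exact Dvd.intro_left _ this
    have ho1 : orderOf (QuotientGroup.mk' N g) ∣ orderOf g := orderOf_map_dvd (QuotientGroup.mk' N) g
    have ho2 : orderOf (QuotientGroup.mk' N g) ∣ 2 ^ n := by
      have : orderOf (QuotientGroup.mk' N g) ∣ Nat.card (H ⧸ N) := orderOf_dvd_natCard _
      exact this.trans hidx
    have ho3 : orderOf (QuotientGroup.mk' N g) = 1 := by
      obtain ⟨m, -, hm⟩ := (Nat.dvd_prime_pow Nat.prime_two).mp ho2
      rcases Nat.eq_zero_or_pos m with h | h
      · rw [hm, h]; rfl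
      · exfalso
        have h2 : 2 ∣ orderOf g := by
          have : 2 ∣ orderOf (QuotientGroup.mk' N g) := by rw [hm]; exact dvd_pow_self 2 (by omega)
          exact this.trans ho1
        exact (Nat.not_even_iff_odd.mpr hg) (even_iff_two_dvd.mpr h2)
    have h1 : QuotientGroup.mk' N g = 1 := orderOf_eq_one_iff.mp ho3
    exact (QuotientGroup.eq_one_iff g).mp h1

end LemmaA

variable {G : Type*} [Group G]

theorem meet_ne_bot [Finite G] {X Q T : Subgroup G} (hXT : X ≤ T) (hidx : Q.relIndex T ≤ 2)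
    (hcard : 2 < Nat.card X) : X ⊓ Q ≠ ⊥ := by
  intro h
  have h1 : (X ⊓ Q).relIndex X = Nat.card X := by rw [h, Subgroup.relIndex_bot_left]
  rw [Subgroup.inf_relIndex_left] at h1
  have hne : Q.relIndex T ≠ 0 := by
    have : (Q.subgroupOf T).index ≠ 0 := Subgroup.index_ne_zero_of_finite
    exact this
  have h2 : Q.relIndex X ≤ Q.relIndex T := Subgroup.relIndex_le_of_le_right hXT hne
  omega

theorem card_cj [Finite G] (X : Subgroup G) (g : G) : Nat.card (cj X g) = Nat.card X :=
  Subgroup.card_map_of_injective (MulAut.conj g).injective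

theorem pstruct [Finite G] (K T O : Subgroup G) (hT : IsPGroup 2 T)
    (hTK : T ≤ Subgroup.normalizer (K : Set G)) (hOK : O ≤ K) (hOT : O ≤ T)
    (hO3 : O.relIndex K = 3)
    (hgen : Subgroup.closure {g : G | g ∈ K ∧ Odd (orderOf g)} = K) :
    ∃ Q : Subgroup G, Q ≤ T ∧ K ⊔ T ≤ Subgroup.normalizer (Q : Set G) ∧ Q.relIndex T ≤ 2 ∧
      ∀ N : Subgroup G, N ≤ K ⊔ T → (∀ x ∈ K ⊔ T, cj N x = N) → N ≤ Q ∨ K ≤ N := by
  set P : Subgroup G := K ⊔ T with hP
  have hKP : K ≤ P := le_sup_left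
  have hTP : T ≤ P := le_sup_right
  have hPK : P ≤ Subgroup.normalizer (K : Set G) := sup_le Subgroup.le_normalizer hTK
  have : (K.subgroupOf P).Normal := Subgroup.normal_subgroupOf_of_le_normalizer hPK
  have hsup : K.subgroupOf P ⊔ T.subgroupOf P = ⊤ := by
    rw [← Subgroup.subgroupOf_sup hKP hTP, Subgroup.subgroupOf_self]
  have hT0 : IsPGroup 2 (T.subgroupOf P) := hT.comap_subtype
  have h3 : (T.subgroupOf P).index = 3 :=
    index_eq_three (K.subgroupOf P) (T.subgroupOf P) (O.subgroupOf P) hsup hT0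
      (fun x hx => hOK hx) (fun x hx => hOT hx)
      (by rw [Subgroup.relIndex_subgroupOf hKP]; exact hO3)
  set C : Subgroup P := (T.subgroupOf P).normalCore with hC
  have hCn : C.Normal := Subgroup.normalCore_normal _
  refine ⟨C.map P.subtype, ?_, ?_, ?_, ?_⟩
  · rintro _ ⟨q, hq, rfl⟩
    have hq' : q ∈ T.subgroupOf P := Subgroup.normalCore_le (T.subgroupOf P) hq
    exact hq'
  · intro x hx
    rw [Subgroup.mem_normalizer_iff]
    intro h
    constructor
    · rintro ⟨q, hq, rfl⟩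
      exact ⟨⟨x, hx⟩ * q * ⟨x, hx⟩⁻¹, hCn.conj_mem q hq ⟨x, hx⟩, rfl⟩
    · rintro ⟨q, hq, hqe⟩
      refine ⟨⟨x, hx⟩⁻¹ * q * ⟨x, hx⟩, ?_, ?_⟩
      · have := hCn.conj_mem q hq (⟨x, hx⟩⁻¹)
        simpa using this
      · have : (P.subtype (⟨x, hx⟩⁻¹ * q * ⟨x, hx⟩) : G) = x⁻¹ * (x * h * x⁻¹) * x := by
          rw [← hqe]; rfl
        rw [this]; group
  · have e : (C.map P.subtype).subgroupOf P = C := by
      ext y
      rw [Subgroup.mem_subgroupOf]
      constructor
      · rintro ⟨q, hq, hqe⟩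
        have : q = y := Subtype.ext hqe
        rwa [← this]
      · intro hy
        exact ⟨y, hy, rfl⟩
    have := core_relIndex_le (T.subgroupOf P) h3
    rw [← hC, ← e, Subgroup.relIndex_subgroupOf hTP] at this
    exact this
  · intro N hNP hNx
    have hPN : P ≤ Subgroup.normalizer (N : Set G) := fun x hx =>
      mem_normalizer_of_cj_le (le_of_eq (hNx x hx)) (le_of_eq (hNx x⁻¹ (P.inv_mem hx)))
    have : (N.subgroupOf P).Normal := Subgroup.normal_subgroupOf_of_le_normalizer hPN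
    rcases normal_dichotomy (T.subgroupOf P) hT0 h3 (N.subgroupOf P) with h | h
    · left
      intro n hn
      exact ⟨⟨n, hNP hn⟩, h (show (⟨n, hNP hn⟩ : P) ∈ N.subgroupOf P from hn), rfl⟩
    · right
      conv_lhs => rw [← hgen]
      rw [Subgroup.closure_le]
      rintro g ⟨hgK, hgo⟩
      have := h ⟨g, hKP hgK⟩ (by rw [Subgroup.orderOf_mk]; exact hgo)
      exact this

/-- Steps (2)+(3) of the kill with elementary hypotheses. -/
theorem rKill [Finite G] (V T K O : Subgroup G)
    (hF1 : ∀ a b : G, cj V a ⊓ Subgroup.normalizer (cj V b : Set G) ≠ ⊥ →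
      ∀ u ∈ cj V a, ∀ v ∈ cj V b, u * v = v * u)
    (hVcard : 2 < Nat.card V) (hVT : V ≤ T) (hT : IsPGroup 2 T)
    (hTL : T ≤ Subgroup.normalizer (V : Set G)) (hTK : T ≤ Subgroup.normalizer (K : Set G))
    (hOK : O ≤ K) (hOT : O ≤ T) (hO3 : O.relIndex K = 3)
    (hgen : Subgroup.closure {g : G | g ∈ K ∧ Odd (orderOf g)} = K)
    (hKL : ¬ K ≤ Subgroup.normalizer (V : Set G)) :
    ∃ F : Subgroup G, F ≠ ⊥ ∧ F ≤ T ∧
      Subgroup.normalizer (T : Set G) ≤ Subgroup.normalizer (F : Set G) ∧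
      K ≤ Subgroup.normalizer (F : Set G) := by
  obtain ⟨Q, hQT, hPQ, hidx, hdich⟩ := pstruct K T O hT hTK hOK hOT hO3 hgen
  obtain ⟨F, h1, h2, h3, h4⟩ := pushKill V T Q (K ⊔ T) hF1 hVT le_sup_right hTL hQT hPQ
    (fun g hg => meet_ne_bot hg hidx (by rw [card_cj]; exact hVcard))
    (fun N hNP hNx hNL => (hdich N hNP hNx).resolve_right
      (fun hKN => hKL ((hKN.trans le_sup_left).trans hNL)))
  exact ⟨F, h1, h2, h3, le_sup_left.trans h4⟩

/-- Step (1) of the kill: `V ≤ O₂(L')`.  `Lp` plays `L'`, `Qp` plays `O₂(L')`. -/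
theorem vLeCore (V Lp Qp : Subgroup G)
    (hF1 : ∀ a b : G, cj V a ⊓ Subgroup.normalizer (cj V b : Set G) ≠ ⊥ →
      ∀ u ∈ cj V a, ∀ v ∈ cj V b, u * v = v * u)
    (hV2 : ∀ v ∈ V, v * v = 1)
    (z : G) (hzV : z ∈ V) (hz1 : z ≠ 1) (hzQ : z ∈ Qp)
    (hQpL : Qp ≤ Subgroup.normalizer (V : Set G))
    (hLpQ : Lp ≤ Subgroup.normalizer (Qp : Set G))
    (hmax : ∀ E : Subgroup G, E ≠ ⊥ → IsPGroup 2 E → Lp ≤ Subgroup.normalizer (E : Set G) →
      Subgroup.normalizer (E : Set G) ≤ Lp)
    (hcore : ∀ E : Subgroup G, IsPGroup 2 E → E ≤ Lp → Lp ≤ Subgroup.normalizer (E : Set G) →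
      E ≤ Qp) :
    V ≤ Qp := by
  classical
  set E : Subgroup G := ⨆ (x : G) (_ : x ∈ Lp), cj V x with hEdef
  have hVE : V ≤ E := by
    have : cj V 1 ≤ E := le_iSup₂ (f := fun (x : G) (_ : x ∈ Lp) => cj V x) 1 Lp.one_mem
    rwa [cj_one] at this
  -- Qp normalizes every conjugate
  have hQnorm : ∀ x ∈ Lp, Qp ≤ Subgroup.normalizer (cj V x : Set G) := by
    intro x hx q hq
    have hq' : x⁻¹ * q * x ∈ Qp := by
      have hxn : x⁻¹ ∈ Subgroup.normalizer (Qp : Set G) := hLpQ (Lp.inv_mem hx)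
      have := (Subgroup.mem_normalizer_iff.mp hxn q).mp hq
      simpa using this
    have hq'' : x⁻¹ * q * x ∈ Subgroup.normalizer (V : Set G) := hQpL hq'
    rw [Subgroup.mem_normalizer_iff]
    intro h
    rw [mem_cj, mem_cj]
    have := (Subgroup.mem_normalizer_iff.mp hq'') (x⁻¹ * h * x)
    rw [this]
    have e : x⁻¹ * q * x * (x⁻¹ * h * x) * (x⁻¹ * q * x)⁻¹ = x⁻¹ * (q * h * q⁻¹) * x := by group
    rw [e]
  -- pairwise commuting
  have hcomm : ∀ x ∈ Lp, ∀ y ∈ Lp, ∀ u ∈ cj V x, ∀ v ∈ cj V y, u * v = v * u := by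
    intro x hx y hy
    apply hF1 x y
    intro h0
    have hz' : x * z * x⁻¹ ∈ cj V x ⊓ Subgroup.normalizer (cj V y : Set G) := by
      refine ⟨mem_cj.mpr (by simpa [mul_assoc] using hzV), hQnorm y hy ?_⟩
      have hxn : x ∈ Subgroup.normalizer (Qp : Set G) := hLpQ hx
      exact (Subgroup.mem_normalizer_iff.mp hxn z).mp hzQ
    rw [h0, Subgroup.mem_bot] at hz'
    apply hz1
    have : z = x⁻¹ * (x * z * x⁻¹) * x := by group
    rw [this, hz']; group
  have hEcomm : E ≤ Subgroup.centralizer (E : Set G) := by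
    rw [hEdef]
    refine iSup₂_le fun y hy => ?_
    rw [Subgroup.le_centralizer_iff]
    refine iSup₂_le fun x hx => ?_
    intro u hu
    rw [Subgroup.mem_centralizer_iff]
    intro v hv
    exact (hcomm x hx y hy u hu v hv).symm
  -- every element of E squares to 1
  have hsq : ∀ e ∈ E, e * e = 1 := by
    let Sq : Subgroup G :=
      { carrier := {e | e ∈ E ∧ e * e = 1}
        one_mem' := ⟨E.one_mem, by simp⟩
        mul_mem' := by
          rintro a b ⟨ha, ha2⟩ ⟨hb, hb2⟩
          refine ⟨E.mul_mem ha hb, ?_⟩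
          have hab : b * a = a * b := (Subgroup.mem_centralizer_iff.mp (hEcomm ha)) b hb
          calc a * b * (a * b) = a * (b * a) * b := by group
            _ = a * (a * b) * b := by rw [hab]
            _ = (a * a) * (b * b) := by group
            _ = 1 := by rw [ha2, hb2, one_mul]
        inv_mem' := by
          rintro a ⟨ha, ha2⟩
          refine ⟨E.inv_mem ha, ?_⟩
          have : a⁻¹ = a := by
            rw [inv_eq_iff_mul_eq_one]; exact ha2
          rw [this, ha2] }
    have hle : E ≤ Sq := by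
      rw [hEdef]
      refine iSup₂_le fun x hx => ?_
      intro u hu
      refine ⟨le_iSup₂ (f := fun (x : G) (_ : x ∈ Lp) => cj V x) x hx hu, ?_⟩
      rw [mem_cj] at hu
      have h2 := hV2 _ hu
      have : u * u = x * ((x⁻¹ * u * x) * (x⁻¹ * u * x)) * x⁻¹ := by group
      rw [this, h2]; group
    intro e he
    exact (hle he).2
  have hE2 : IsPGroup 2 E := by
    rintro ⟨e, he⟩
    refine ⟨1, ?_⟩
    apply Subtype.ext
    simp only [pow_one, Subgroup.coe_pow, Subgroup.coe_one]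
    rw [pow_two]
    exact hsq e he
  have hEne : E ≠ ⊥ := by
    intro h
    apply hz1
    have : z ∈ E := hVE hzV
    rwa [h, Subgroup.mem_bot] at this
  have hEP : ∀ x ∈ Lp, cj E x ≤ E := by
    intro x hx
    rw [hEdef]
    simp only [cj, Subgroup.map_iSup]
    refine iSup₂_le fun y hy => ?_
    rw [show Subgroup.map (MulAut.conj x).toMonoidHom (Subgroup.map (MulAut.conj y).toMonoidHom V)
      = cj V (x * y) from cj_cj V y x]
    exact le_iSup₂ (f := fun (x : G) (_ : x ∈ Lp) => cj V x) (x * y) (Lp.mul_mem hx hy)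
  have hLpE : Lp ≤ Subgroup.normalizer (E : Set G) := fun x hx =>
    mem_normalizer_of_cj_le (hEP x hx) (hEP x⁻¹ (Lp.inv_mem hx))
  have hELp : E ≤ Lp := Subgroup.le_normalizer.trans (hmax E hEne hE2 hLpE)
  exact hVE.trans (hcore E hE2 hELp hLpE)

end Cfsg.Agent.H59.PushKill

#print axioms Cfsg.Agent.H59.PushKill.rKill
#print axioms Cfsg.Agent.H59.PushKill.vLeCore
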