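import Mathlib
import Cfsg.Agent.H52.SpDefs
import Cfsg.Agent.H59.SoConj

/-!
# SP-LE (piece of S2944, for helper52/helper66): `N_G(K) ≤ N_G(W_K)`.
-/

set_option autoImplicit false
open Cfsg

namespace Cfsg.Agent.H59.Sp

universe u

/-- An element of the normalizer of `K` fixes `K` under conjugation. -/
theorem map_conj_eq_of_mem_normalizer {G : Type u} [Group G] {K : Subgroup G} {g : G}
    (hg : g ∈ Subgroup.normalizer (K : Set G)) : K.map (MulAut.conj g).toMonoidHom = K := by
  ext x
  constructor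
  · rintro ⟨y, hy, rfl⟩
    simp only [MulEquiv.toMonoidHom_eq_coe, MonoidHom.coe_coe, MulAut.conj_apply]
    exact (Subgroup.mem_normalizer_iff.mp hg y).mp hy
  · intro hx
    refine ⟨g⁻¹ * x * g, ?_, ?_⟩
    · apply (Subgroup.mem_normalizer_iff.mp hg (g⁻¹ * x * g)).mpr
      have e : g * (g⁻¹ * x * g) * g⁻¹ = x := by group
      rw [e]; exact hx
    · simp only [MulEquiv.toMonoidHom_eq_coe, MonoidHom.coe_coe, MulAut.conj_apply]
      group

/-- If conjugation by `g` fixes `W` then `g` normalizes `W`. -/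
theorem mem_normalizer_of_map_conj_eq {G : Type u} [Group G] {W : Subgroup G} {g : G}
    (hW : W.map (MulAut.conj g).toMonoidHom = W) : g ∈ Subgroup.normalizer (W : Set G) := by
  rw [Subgroup.mem_normalizer_iff]
  intro x
  constructor
  · intro hx
    rw [← hW]
    exact ⟨x, hx, by simp [MulAut.conj_apply]⟩
  · intro hx
    rw [← hW] at hx
    obtain ⟨y, hy, hyx⟩ := hx
    simp only [MulEquiv.toMonoidHom_eq_coe, MonoidHom.coe_coe, MulAut.conj_apply] at hyx
    have : y = x := mul_left_cancel (mul_right_cancel hyx)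
    rw [← this]; exact hy

/-- SP-LE. -/
theorem le : Cfsg.Agent.H52.Sn.StLE.{u} := by
  intro G _ _ K g hg
  have hK := map_conj_eq_of_mem_normalizer hg
  have hW := Cfsg.Agent.H59.So.wOf_map_conj g K
  rw [hK] at hW
  exact mem_normalizer_of_map_conj_eq hW.symm

example : Cfsg.Agent.H52.Sn.StLE.{u} := le

end Cfsg.Agent.H59.Sp

#print axioms Cfsg.Agent.H59.Sp.le
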