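import Mathlib
import Cfsg.Agent.H52.SpDefs
import Cfsg.Agent.H59.SpLE
import Cfsg.Agent.H51.Local
import Cfsg.Agent.H14.Thompson

/-!
# SP-SETUP (piece of S2944, for helper52/helper66): `N_G(W_K)` is in the family of a Sylow
2-subgroup `S` of it containing `J(T)`, and `K` is a `J(S)`-component.
-/

set_option autoImplicit false
open Cfsg

namespace Cfsg.Agent.H59.Sp

universe u

/-- SP-SETUP. -/
theorem setup : Cfsg.Agent.H52.Sn.StSetup.{u} := by
  intro G _ _ hchar T hT K hK
  obtain ⟨hKc, hK0⟩ := hK
  have hKc' := hKc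
  obtain ⟨h1, h2, h3, h4, h5, h6⟩ := hKc
  have : Fact (Nat.Prime 2) := ⟨Nat.prime_two⟩
  have hJT : thompsonSubgroupOf 2 T ≤ T := Cfsg.Agent.H14.thompsonSubgroupOf_le 2 T
  have hJ2 : IsPGroup 2 ↥(thompsonSubgroupOf 2 T) := hT.to_le hJT
  have hJK : thompsonSubgroupOf 2 T ≤ Subgroup.normalizer (K : Set G) := by
    have := Subgroup.normalizer_commutator_ge_right (H₁ := K) (H₂ := thompsonSubgroupOf 2 T)
    rwa [h2] at this
  have hKN : K ≤ Subgroup.normalizer (wOf K : Set G) := Subgroup.le_normalizer.trans (le K)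
  have hJN : thompsonSubgroupOf 2 T ≤ Subgroup.normalizer (wOf K : Set G) := hJK.trans (le K)
  -- `K` is not a 2-group
  have hKnot : ¬ IsPGroup 2 ↥K := by
    intro hK2
    obtain ⟨n, hn⟩ := hK2.exists_card_eq
    have hdvd : (pCoreOf 2 K).relIndex K ∣ Nat.card ↥K := Subgroup.relIndex_dvd_card _ _
    rw [h3, hn] at hdvd
    have := Nat.Prime.dvd_of_dvd_pow Nat.prime_three hdvd
    omega
  -- `W` is a nontrivial 2-group
  have hW2 : IsPGroup 2 ↥(wOf K) := IsPGroup.of_card (n := 2) (by rw [h5]; norm_num)
  have hW1 : wOf K ≠ ⊥ := by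
    intro e
    rw [e, Subgroup.card_bot] at h5
    omega
  -- a Sylow 2-subgroup of `N` containing `J`
  obtain ⟨P, hP⟩ := (hJ2.comap_subtype
    (K := Subgroup.normalizer (wOf K : Set G))).exists_le_sylow
  refine ⟨(P : Subgroup ↥(Subgroup.normalizer (wOf K : Set G))).map
    (Subgroup.normalizer (wOf K : Set G)).subtype, ?_, ?_, ?_, ?_, hKN⟩
  all_goals
    have hS2 : IsPGroup 2 ↥((P : Subgroup ↥(Subgroup.normalizer (wOf K : Set G))).map
        (Subgroup.normalizer (wOf K : Set G)).subtype) := P.isPGroup'.map _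
    have hSN : (P : Subgroup ↥(Subgroup.normalizer (wOf K : Set G))).map
        (Subgroup.normalizer (wOf K : Set G)).subtype ≤ Subgroup.normalizer (wOf K : Set G) :=
      Subgroup.map_subtype_le _
    have hJS : thompsonSubgroupOf 2 T ≤ (P : Subgroup ↥(Subgroup.normalizer (wOf K : Set G))).map
        (Subgroup.normalizer (wOf K : Set G)).subtype := by
      intro j hj
      exact ⟨⟨j, hJN hj⟩, hP (show (⟨j, hJN hj⟩ : ↥(Subgroup.normalizer (wOf K : Set G))) ∈
        (thompsonSubgroupOf 2 T).comap (Subgroup.normalizer (wOf K : Set G)).subtype from hj), rfl⟩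
    have hodd : Odd (((P : Subgroup ↥(Subgroup.normalizer (wOf K : Set G))).map
        (Subgroup.normalizer (wOf K : Set G)).subtype).relIndex
          (Subgroup.normalizer (wOf K : Set G))) := by
      have e : ((P : Subgroup ↥(Subgroup.normalizer (wOf K : Set G))).map
          (Subgroup.normalizer (wOf K : Set G)).subtype).subgroupOf
            (Subgroup.normalizer (wOf K : Set G)) = (P : Subgroup _) :=
        Subgroup.comap_map_eq_self_of_injective (Subgroup.subtype_injective _) _
      unfold Subgroup.relIndex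
      rw [e]
      have := P.not_dvd_index
      rcases Nat.even_or_odd (P : Subgroup ↥(Subgroup.normalizer (wOf K : Set G))).index with h | h
      · exact absurd (even_iff_two_dvd.mp h) this
      · exact h
    have hSyl : IsSylowTwoIn ((P : Subgroup ↥(Subgroup.normalizer (wOf K : Set G))).map
        (Subgroup.normalizer (wOf K : Set G)).subtype) (Subgroup.normalizer (wOf K : Set G)) :=
      ⟨hSN, hS2, hodd⟩
    have hJeq : thompsonSubgroupOf 2 ((P : Subgroup ↥(Subgroup.normalizer (wOf K : Set G))).map
        (Subgroup.normalizer (wOf K : Set G)).subtype) = thompsonSubgroupOf 2 T :=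
      hK0 _ hJS hSyl
    have hJ1 : thompsonSubgroupOf 2 T ≠ ⊥ := by
      intro e
      rw [e, Subgroup.commutator_bot_right] at h2
      rw [← h2, Subgroup.relIndex_bot_right] at h3
      omega
  · exact hS2
  · intro e
    rw [e] at hJS
    exact hJ1 (le_bot_iff.mp hJS)
  · refine ⟨hSyl, ?_, ?_⟩
    · rw [hJeq]
      intro hJQ
      apply hKnot
      have hKQ : K ≤ pCoreOf 2 (Subgroup.normalizer (wOf K : Set G)) := by
        have hcomm : ⁅K, thompsonSubgroupOf 2 T⁆ ≤
            pCoreOf 2 (Subgroup.normalizer (wOf K : Set G)) := by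
          rw [Subgroup.commutator_le]
          intro k hk j hj
          have hn := Cfsg.Agent.H51.le_normalizer_pCoreOf 2 (Subgroup.normalizer (wOf K : Set G))
            (hKN hk)
          have h1' := (Subgroup.mem_normalizer_iff.mp hn j).mp (hJQ hj)
          rw [commutatorElement_def]
          exact Subgroup.mul_mem _ h1' (Subgroup.inv_mem _ (hJQ hj))
        rw [h2] at hcomm
        exact hcomm
      exact (Cfsg.Agent.H51.pCoreOf_isPGroup 2 _).to_le hKQ
    · intro x hx
      have hWQ : wOf K ≤ pCoreOf 2 (Subgroup.normalizer (wOf K : Set G)) :=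
        Cfsg.Agent.H51.le_pCoreOf 2 Subgroup.le_normalizer le_rfl hW2
      have hxN : x ∈ Subgroup.normalizer (wOf K : Set G) := by
        apply Subgroup.centralizer_le_normalizer
        rw [Subgroup.mem_centralizer_iff] at hx ⊢
        intro w hw
        exact hx w (hWQ hw)
      have hc := hchar.2 (wOf K) hW2 hW1
      unfold IsOfCharacteristicTwo at hc
      have hx' : (⟨x, hxN⟩ : ↥(Subgroup.normalizer (wOf K : Set G))) ∈
          Subgroup.centralizer (pCore 2 ↥(Subgroup.normalizer (wOf K : Set G)) :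
            Set ↥(Subgroup.normalizer (wOf K : Set G))) := by
        rw [Subgroup.mem_centralizer_iff]
        intro y hy
        apply Subtype.ext
        rw [Subgroup.mem_centralizer_iff] at hx
        exact hx (y : G) ⟨y, hy, rfl⟩
      exact ⟨⟨x, hxN⟩, hc hx', rfl⟩
  · unfold IsJComponent
    rw [hJeq]
    exact hKc'

example : Cfsg.Agent.H52.Sn.StSetup.{u} := setup

end Cfsg.Agent.H59.Sp

#print axioms Cfsg.Agent.H59.Sp.setup
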