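import Cfsg.Agent.H64.JzDefs
import Cfsg.Agent.H84.JtDich
import Cfsg.Agent.H39.JzLex
import Cfsg.Agent.H59.PushKill2

/-!
# JZ-KILL (S2951 / S2952): sub-pieces and assembly

`V := Vof L = Ω₁Z(O₂(L))`.  The sub-pieces are closed Props; `killAsm` derives `StKill` from them
(+ `StLt`, `StNorm`).
-/

set_option autoImplicit false
open Cfsg

namespace Cfsg.Agent.H59.JzK

open Cfsg.Agent.H64.Jz

universe u

/-- `V = Ω₁Z(O₂(L))`. -/
abbrev Vof {G : Type u} [Group G] (L : Subgroup G) : Subgroup G := omegaCenterOf (pCoreOf 2 L)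

/-- K-EXP: `Ω₁Z(X)` has exponent 2. -/
def StKExp : Prop := ∀ {G : Type u} [Group G] [Finite G] (X : Subgroup G),
  ∀ v ∈ omegaCenterOf X, v * v = 1

/-- K-NV: `N_G(V) = L`. -/
def StKNV : Prop := ∀ {G : Type u} [Group G] [Finite G] (S : Sylow 2 G)
    (M K L T' K' L' : Subgroup G), RCtx S M K L T' K' L' →
  Subgroup.normalizer (Vof L : Set G) = L

/-- K-CARD: if `S` does not normalize `K` then `|V| ≥ 16`. -/
def StKCard : Prop := ∀ {G : Type u} [Group G] [Finite G] (S : Sylow 2 G)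
    (M K L T' K' L' : Subgroup G), RCtx S M K L T' K' L' →
  ¬ (S : Subgroup G) ≤ Subgroup.normalizer (K : Set G) → 16 ≤ Nat.card ↥(Vof L)

/-- K-CENT: `C_G(u) ≤ N_G(V)` for `1 ≠ u ∈ V`. -/
def StKCent : Prop := ∀ {G : Type u} [Group G] [Finite G] (S : Sylow 2 G)
    (M K L T' K' L' : Subgroup G), RCtx S M K L T' K' L' →
  maxElemAbelianOrder T' ≠ maxElemAbelianOrder (S : Subgroup G) →
  ∀ u ∈ Vof L, u ≠ 1 →
    Subgroup.centralizer ({u} : Set G) ≤ Subgroup.normalizer (Vof L : Set G)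

/-- K-TI: `V` is a TI-subgroup. -/
def StKTI : Prop := ∀ {G : Type u} [Group G] [Finite G] (S : Sylow 2 G)
    (M K L T' K' L' : Subgroup G), RCtx S M K L T' K' L' →
  maxElemAbelianOrder T' ≠ maxElemAbelianOrder (S : Subgroup G) →
  ∀ g : G, Vof L ⊓ (Vof L).map (MulAut.conj g).toMonoidHom ≠ ⊥ →
    g ∈ Subgroup.normalizer (Vof L : Set G)

/-- K-FOUR: no four-group of `N_G(V)` whose three involutions have the same fixed points on
`V`. -/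
def StKFour : Prop := ∀ {G : Type u} [Group G] [Finite G] (S : Sylow 2 G)
    (M K L T' K' L' : Subgroup G), RCtx S M K L T' K' L' →
  ∀ b₁ ∈ Subgroup.normalizer (Vof L : Set G), ∀ b₂ ∈ Subgroup.normalizer (Vof L : Set G),
    b₁ * b₁ = 1 → b₂ * b₂ = 1 → b₁ * b₂ = b₂ * b₁ →
    (∀ v ∈ Vof L, (b₁ * v = v * b₁ ↔ b₂ * v = v * b₂) ∧
      (b₁ * v = v * b₁ ↔ (b₁ * b₂) * v = v * (b₁ * b₂))) →
    b₁ ∈ Subgroup.centralizer (Vof L : Set G) ∨ b₂ ∈ Subgroup.centralizer (Vof L : Set G) ∨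
      b₁ * b₂ ∈ Subgroup.centralizer (Vof L : Set G)

/-- K-FIX (abstract): an involution normalizing an elementary abelian 2-group `V` of order
`≥ 16` centralizes two distinct nontrivial elements of `V`. -/
def StKFix : Prop := ∀ {G : Type u} [Group G] [Finite G] (V : Subgroup G),
  (∀ v ∈ V, v * v = 1) → 16 ≤ Nat.card ↥V →
  ∀ b ∈ Subgroup.normalizer (V : Set G), b * b = 1 →
    ∃ v₁ ∈ V, ∃ v₂ ∈ V, v₁ ≠ 1 ∧ v₂ ≠ 1 ∧ v₁ ≠ v₂ ∧ b * v₁ = v₁ * b ∧ b * v₂ = v₂ * b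

/-- K-Z: an involution of `V` inside `O₂(L')`. -/
def StKZ : Prop := ∀ {G : Type u} [Group G] [Finite G] (S : Sylow 2 G)
    (M K L T' K' L' : Subgroup G), RCtx S M K L T' K' L' →
  ∃ z ∈ Vof L, z ≠ 1 ∧ z ∈ pCoreOf 2 L'

/-- K-BASIC: the Sylow facts. -/
def StKBasic : Prop := ∀ {G : Type u} [Group G] [Finite G] (S : Sylow 2 G)
    (M K L T' K' L' : Subgroup G), RCtx S M K L T' K' L' →
  (S : Subgroup G) ≤ L ∧ pCoreOf 2 L' ≤ T' ∧ pCoreOf 2 K' ≤ T' ∧ pCoreOf 2 K' ≤ K' ∧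
  L' ≤ Subgroup.normalizer (pCoreOf 2 L' : Set G) ∧
  (∀ E : Subgroup G, IsPGroup 2 ↥E → E ≤ L' → L' ≤ Subgroup.normalizer (E : Set G) →
    E ≤ pCoreOf 2 L')

/-- Assembly of JZ-KILL. -/
theorem killAsm (hExp : StKExp.{u}) (hNV : StKNV.{u}) (hCard : StKCard.{u})
    (hCent : StKCent.{u}) (hTI : StKTI.{u}) (hFour : StKFour.{u}) (hFix : StKFix.{u})
    (hZ : StKZ.{u}) (hBasic : StKBasic.{u}) (hLt : StLt.{u}) (hNorm : StNorm.{u}) :
    StKill.{u} := by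
  intro G _ _ S M K L T' K' L' hR ha hn
  have hexp := hExp (pCoreOf 2 L)
  have hNVeq : Subgroup.normalizer (Vof L : Set G) = L := hNV S M K L T' K' L' hR
  have hcard : 16 ≤ Nat.card ↥(Vof L) := hCard S M K L T' K' L' hR hn
  have H1 := hCent S M K L T' K' L' hR ha
  have H2 := hTI S M K L T' K' L' hR ha
  have H3 := hFour S M K L T' K' L' hR
  have H4 := hFix (Vof L) hexp hcard
  have hF1 := Cfsg.Agent.H84.JtDich.dich_F1 (Vof L) hexp H1 H2 H3 H4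
  obtain ⟨z, hzV, hz1, hzQ⟩ := hZ S M K L T' K' L' hR
  obtain ⟨hSL, hQT, hOT, hOK, hLQ, hcore⟩ := hBasic S M K L T' K' L' hR
  obtain ⟨-, -, hB', hne⟩ := hR
  have hB'' : Base S L T' K' L' := hB'
  obtain ⟨-, -, -, -, hT'max, hT'S, hK', hL'max, -⟩ := hB'
  obtain ⟨hT'2, -, hT'L, -⟩ := hT'max.1
  obtain ⟨hK'0, hK'nL, -⟩ := hK'
  obtain ⟨hgen, -, hidx3, -, -, -⟩ := hK'0.1
  have hmax : ∀ E : Subgroup G, E ≠ ⊥ → IsPGroup 2 ↥E → L' ≤ Subgroup.normalizer (E : Set G) →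
      Subgroup.normalizer (E : Set G) ≤ L' := fun E hE hE2 hLE =>
    (hL'max.2 (Subgroup.normalizer (E : Set G)) ⟨E, hE2, hE, rfl⟩ hLE).le
  have hVQ : Vof L ≤ pCoreOf 2 L' :=
    Cfsg.Agent.H59.PushKill.vLeCore (Vof L) L' (pCoreOf 2 L') hF1 hexp z hzV hz1 hzQ
      (hQT.trans (hT'L.trans hNVeq.ge)) hLQ hmax hcore
  have hVT : Vof L ≤ T' := hVQ.trans hQT
  have hTK : T' ≤ Subgroup.normalizer (K' : Set G) :=
    hNorm S L T' K' L' hB'' (hLt S L T' K' L' hB'' hne)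
  obtain ⟨F, hFne, hFT, hNT, hKF⟩ :=
    Cfsg.Agent.H59.PushKill.rKill (Vof L) T' K' (pCoreOf 2 K') hF1 (by omega) hVT hT'2
      (hT'L.trans hNVeq.ge) hTK hOK hOT hidx3 hgen (fun h => hK'nL (h.trans hNVeq.le))
  have hF2 : IsPGroup 2 ↥F := hT'2.to_le hFT
  have hNF : IsTwoLocal (Subgroup.normalizer (F : Set G)) := ⟨F, hF2, hFne, rfl⟩
  have hle : Subgroup.normalizer (F : Set G) ≤ L :=
    Cfsg.Agent.H39.Jz.twoLocal_le_of_normalizer hT'max S.isPGroup' hSL hT'S hne hNF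
      (inf_le_right.trans hNT)
  exact hK'nL (hKF.trans hle)

end Cfsg.Agent.H59.JzK

#print axioms Cfsg.Agent.H59.JzK.killAsm
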