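import Mathlib
import Cfsg.Agent.H64.JyDefs
import Cfsg.Agent.H64.JzFinal
import Cfsg.Agent.H59.PushKill2
import Cfsg.Agent.S2950
import Cfsg.Agent.H51.Local
import Cfsg.Agent.H54.UqO2SN
import Cfsg.Agent.Helper55.J48
import Cfsg.Agent.H14.Thompson

/-!
# JY-GOODB (S2953): `|P : O₂(P)| = 6` and `P / O₂(P)` is not abelian, for `P = K ⊔ T`
-/

set_option autoImplicit false
open Cfsg

namespace Cfsg.Agent.H59.Jy

open Cfsg.Agent.H64.Jz Cfsg.Agent.H64.Jy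
open scoped commutatorElement

universe u

/-- JY-GOODB. -/
theorem goodB : StGoodB.{u} := by
  intro G _ _ S M T K L hB
  have hTK : T ≤ Subgroup.normalizer (K : Set G) :=
    normFinal S M T K L hB (stMain S M T K L hB)
  obtain ⟨hZN, hO, hM, hMJ, hT, -, hK, hLmax, hKL⟩ := hB
  obtain ⟨hc2, hsolv, hZ⟩ := hZN
  obtain ⟨L₀, -, -, huniq, hsn₀, hSyl₀⟩ :=
    Cfsg.Agent.S2950.result hc2 hsolv hZ hO S M hM hMJ T hT K hK
  have hLL₀ : L = L₀ := huniq L hLmax hKL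
  have hSyl : IsSylowTwoIn T L := by rw [hLL₀]; exact hSyl₀
  have hsn : (K.subgroupOf L).IsSubnormal := by rw [hLL₀]; exact hsn₀
  have hKL' : K ≤ L := le_sup_left.trans hKL
  have hQT : pCoreOf 2 L ≤ T := Cfsg.Agent.Helper55.J48.pCoreOf_le_of_sylowIn hSyl
  have hOT : pCoreOf 2 K ≤ T := (Cfsg.Agent.H54.Uq.o2sn K L hKL' hsn).trans hQT
  have hOK : pCoreOf 2 K ≤ K := Cfsg.Agent.H51.pCoreOf_le 2 K
  have hT2 : IsPGroup 2 ↥T := hSyl.2.1
  obtain ⟨hK0, -, -⟩ := hK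
  obtain ⟨hgen, hcomm, hidx3, -, -, -⟩ := hK0.1
  -- `K` is not a 2-group
  have hKn2 : ¬ IsPGroup 2 ↥K := by
    intro h2
    have hle : K ≤ pCoreOf 2 K := Cfsg.Agent.H51.le_pCoreOf 2 le_rfl Subgroup.le_normalizer h2
    have h1 : (pCoreOf 2 K).relIndex K = 1 := Subgroup.relIndex_eq_one.mpr hle
    omega
  obtain ⟨Q, hQT', hPQ, hQidx, hdich⟩ :=
    Cfsg.Agent.H59.PushKill.pstruct K T (pCoreOf 2 K) hT2 hTK hOK hOT hidx3 hgen
  have hKP : K ≤ K ⊔ T := le_sup_left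
  have hTP : T ≤ K ⊔ T := le_sup_right
  have hQ2 : IsPGroup 2 ↥Q := hT2.to_le hQT'
  have hQP : Q ≤ K ⊔ T := hQT'.trans hTP
  -- `Q = O₂(P)`
  have hQO : Q ≤ pCoreOf 2 (K ⊔ T) := Cfsg.Agent.H51.le_pCoreOf 2 hQP hPQ hQ2
  have hOQ : pCoreOf 2 (K ⊔ T) ≤ Q := by
    have hnorm : ∀ x ∈ K ⊔ T, Cfsg.Agent.H59.PushKill.cj (pCoreOf 2 (K ⊔ T)) x =
        pCoreOf 2 (K ⊔ T) := fun x hx =>
      Cfsg.Agent.H59.PushKill.cj_eq_of_mem_normalizer
        (Cfsg.Agent.H51.le_normalizer_pCoreOf 2 (K ⊔ T) hx)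
    rcases hdich (pCoreOf 2 (K ⊔ T)) (Cfsg.Agent.H51.pCoreOf_le 2 (K ⊔ T)) hnorm with h | h
    · exact h
    · exact absurd ((Cfsg.Agent.H51.pCoreOf_isPGroup 2 (K ⊔ T)).to_le h) hKn2
  have hEq : pCoreOf 2 (K ⊔ T) = Q := le_antisymm hOQ hQO
  -- `|P : T| = 3`
  have hPK : K ⊔ T ≤ Subgroup.normalizer (K : Set G) := sup_le Subgroup.le_normalizer hTK
  have hn : (K.subgroupOf (K ⊔ T)).Normal := Subgroup.normal_subgroupOf_of_le_normalizer hPK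
  have hsup : K.subgroupOf (K ⊔ T) ⊔ T.subgroupOf (K ⊔ T) = ⊤ := by
    rw [← Subgroup.subgroupOf_sup hKP hTP, Subgroup.subgroupOf_self]
  have hT0 : IsPGroup 2 (T.subgroupOf (K ⊔ T)) := hT2.comap_subtype
  have h3 : (T.subgroupOf (K ⊔ T)).index = 3 :=
    Cfsg.Agent.H59.PushKill.index_eq_three (K.subgroupOf (K ⊔ T)) (T.subgroupOf (K ⊔ T))
      ((pCoreOf 2 K).subgroupOf (K ⊔ T)) hsup hT0
      (fun x hx => hOK hx) (fun x hx => hOT hx)
      (by rw [Subgroup.relIndex_subgroupOf hKP]; exact hidx3)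
  have hTP3 : T.relIndex (K ⊔ T) = 3 := h3
  -- `|T : Q| = 2`
  have hQT1 : Q.relIndex T ≠ 1 := by
    intro h1
    have hTQ : T ≤ Q := Subgroup.relIndex_eq_one.mp h1
    have hKT : K ≤ T := by
      rw [← hcomm, Subgroup.commutator_le]
      intro g1 hg1 g2 hg2
      have hg2T : g2 ∈ T := Cfsg.Agent.H14.thompsonSubgroupOf_le 2 T hg2
      have hg2Q : g2 ∈ Q := hTQ hg2T
      have hnn : g1 ∈ Subgroup.normalizer (Q : Set G) := hPQ (hKP hg1)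
      have hc : g1 * g2 * g1⁻¹ ∈ Q := (Subgroup.mem_normalizer_iff.mp hnn g2).mp hg2Q
      have h2 : g1 * g2 * g1⁻¹ * g2⁻¹ ∈ T := T.mul_mem (hQT' hc) (T.inv_mem hg2T)
      simpa [commutatorElement_def] using h2
    exact hKn2 (hT2.to_le hKT)
  have hpos : Q.relIndex T ≠ 0 := Subgroup.index_ne_zero_of_finite
  have hQT2 : Q.relIndex T = 2 := by omega
  have h6 : Q.relIndex (K ⊔ T) = 6 := by
    rw [← Subgroup.relIndex_mul_relIndex Q T (K ⊔ T) hQT' hTP, hQT2, hTP3]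
  rw [hEq]
  refine ⟨h6, ?_⟩
  intro hcomm'
  have hTn : ∀ x ∈ K ⊔ T, Cfsg.Agent.H59.PushKill.cj T x = T := by
    intro x hx
    apply Cfsg.Agent.H59.PushKill.cj_eq_of_mem_normalizer
    rw [Subgroup.mem_normalizer_iff]
    intro t
    constructor
    · intro ht
      have hc : ⁅x, t⁆ ∈ Q := hcomm' (Subgroup.commutator_mem_commutator hx (hTP ht))
      have h2 : ⁅x, t⁆ * t ∈ T := T.mul_mem (hQT' hc) ht
      simpa [commutatorElement_def] using h2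
    · intro ht
      have hxi : x⁻¹ ∈ K ⊔ T := (K ⊔ T).inv_mem hx
      have hc : ⁅x⁻¹, x * t * x⁻¹⁆ ∈ Q := hcomm' (Subgroup.commutator_mem_commutator hxi (hTP ht))
      have h2 : ⁅x⁻¹, x * t * x⁻¹⁆ * (x * t * x⁻¹) ∈ T := T.mul_mem (hQT' hc) ht
      simpa [commutatorElement_def, mul_assoc] using h2
  rcases hdich T hTP hTn with h | h
  · exact hQT1 (Subgroup.relIndex_eq_one.mpr h)
  · exact hKn2 (hT2.to_le h)

example : Cfsg.Agent.H64.Jy.StGoodB.{u} := goodB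

end Cfsg.Agent.H59.Jy

#print axioms Cfsg.Agent.H59.Jy.goodB
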