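import Mathlib
import Cfsg.Agent.H47.BG1312Defs
import Cfsg.Agent.H47.BG1312Comm
import Cfsg.Agent.H47.BG1216E1
import Cfsg.Agent.H57.BG129Defs
import Cfsg.Agent.H1.Coprime

set_option autoImplicit false

/-!
# BG1312-E (piece of B&G Lemma 13.12, team project of helper47), helper59

In a configuration `Side M N P Q p q` some complement `E` of `M_σ` in `M` contains `P` and lies
in `N`.
-/

namespace Cfsg.Agent.H59.BG1312E

open Cfsg Subgroup Cfsg.Agent.H58.BG10 Cfsg.Agent.H57.BG12 Cfsg.Agent.H47.BG1312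
  Cfsg.Agent.H63.Sig
open scoped Pointwise

universe u

variable {G : Type u} [Group G]

/-- In a finite nilpotent subgroup `D`, a `q`-subgroup `Q` of index prime to `q` contains every
`q`-subgroup of `D`. -/
theorem le_of_nilpotent [Finite G] {D Q R : Subgroup G} {q : ℕ} [Fact q.Prime]
    (hD : Group.IsNilpotent ↥D) (_hQD : Q ≤ D) (hQ : IsPGroup q Q) (hidx : ¬ q ∣ Q.relIndex D)
    (hRD : R ≤ D) (hR : IsPGroup q R) : R ≤ Q := by
  have hQ' : IsPGroup q (Q.subgroupOf D) := hQ.comap_of_injective D.subtype D.subtype_injective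
  have hR' : IsPGroup q (R.subgroupOf D) := hR.comap_of_injective D.subtype D.subtype_injective
  have hidx' : ¬ q ∣ (Q.subgroupOf D).index := hidx
  let S : Sylow q ↥D := hQ'.toSylow hidx'
  have hS : (S : Subgroup ↥D) = Q.subgroupOf D := hQ'.toSylow_coe hidx'
  have hall : ∀ (p : ℕ), Fact (Nat.Prime p) → ∀ (P : Sylow p ↥D), (P : Subgroup ↥D).Normal :=
    ((Group.isNilpotent_of_finite_tfae (G := ↥D)).out 0 3).mp hD
  have hSn : (S : Subgroup ↥D).Normal := hall q inferInstance S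
  obtain ⟨S2, hS2⟩ := hR'.exists_le_sylow
  obtain ⟨g, hg⟩ := MulAction.exists_smul_eq ↥D S S2
  have hS2' : S2 = S := by
    rw [← hg]
    exact Sylow.smul_eq_of_normal
  intro r hr
  have h1 : (⟨r, hRD hr⟩ : ↥D) ∈ R.subgroupOf D := Subgroup.mem_subgroupOf.mpr hr
  have h2 : (⟨r, hRD hr⟩ : ↥D) ∈ (S : Subgroup ↥D) := by
    have := hS2 h1
    rw [hS2'] at this
    exact this
  rw [hS] at h2
  exact Subgroup.mem_subgroupOf.mp h2

theorem card_sup_dvd' [Finite G] (A D : Subgroup G) (hAD : A ≤ normalizer (D : Set G)) :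
    Nat.card (A ⊔ D : Subgroup G) ∣ Nat.card A * Nat.card D := by
  have h1 := Cfsg.Agent.H1.relIndex_sup_of_le_normalizer A D hAD
  have h2 := Subgroup.relIndex_mul_relIndex (⊥ : Subgroup G) D (A ⊔ D) bot_le le_sup_right
  rw [Subgroup.relIndex_bot_left, Subgroup.relIndex_bot_left, h1] at h2
  rw [← h2, mul_comm]
  exact Nat.mul_dvd_mul_right (Subgroup.relIndex_dvd_card D A) _

/-- Conjugation by an element of `E` maps `⁅E, E⁆` into itself. -/
theorem conj_mem_comm {E : Subgroup G} {e x : G} (he : e ∈ E) (hx : x ∈ ⁅E, E⁆) :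
    e * x * e⁻¹ ∈ ⁅E, E⁆ := by
  have h1 : (⁅E, E⁆ : Subgroup G).map (MulAut.conj e).toMonoidHom
      = ⁅E.map (MulAut.conj e).toMonoidHom, E.map (MulAut.conj e).toMonoidHom⁆ :=
    Subgroup.map_commutator E E _
  have h2 : E.map (MulAut.conj e).toMonoidHom ≤ E := by
    rintro _ ⟨y, hy, rfl⟩
    exact mul_mem (mul_mem he hy) (inv_mem he)
  have h3 : (⁅E, E⁆ : Subgroup G).map (MulAut.conj e).toMonoidHom ≤ ⁅E, E⁆ := by
    rw [h1]
    exact Subgroup.commutator_mono h2 h2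
  exact h3 ⟨x, hx, rfl⟩

/-- **BG1312-E.** -/
theorem e [Finite G] (h50 : St1350 G) (h15 : St1415 G) (hSC : StSigConj G) (hSig : StSig G) :
    StE G := by
  intro M N P Q p q hS
  have hq : q.Prime := hS.hq
  have : Fact q.Prime := ⟨hq⟩
  have hpp : p.Prime := hS.hp.1
  have hqσ : q ∉ sigma M := hSig M N P Q p q hS
  have hpσ : p ∉ sigma M := hS.hp.2.1
  -- `Y := P ⊔ Q` is a `σ(M)'`-subgroup of `M`
  have hYM : (P ⊔ Q : Subgroup G) ≤ M := sup_le hS.hPM hS.hQM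
  have hYσ : ∀ r : ℕ, r.Prime → r ∣ Nat.card (P ⊔ Q : Subgroup G) → r ∉ sigma M := by
    intro r hr hrd
    have h1 := hrd.trans (card_sup_dvd' P Q hS.hPQ)
    rw [hS.hPc] at h1
    rcases (Nat.Prime.dvd_mul hr).mp h1 with h2 | h2
    · rw [(Nat.prime_dvd_prime_iff_eq hr hpp).mp h2]; exact hpσ
    · obtain ⟨k, hk⟩ := IsPGroup.iff_card.mp hS.hQq
      rw [hk] at h2
      rw [(Nat.prime_dvd_prime_iff_eq hr hq).mp (hr.dvd_of_dvd_pow h2)]; exact hqσ
  obtain ⟨E0, hE0⟩ := Cfsg.Agent.H47.BG12.exists_complIn_sigmaCore h50 hS.hM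
  obtain ⟨g, hgM, hgY⟩ := hSC M hS.hM E0 hE0 (P ⊔ Q) hYM hYσ
  have hE : IsComplIn (MulAut.conj g⁻¹ • E0) (sigmaCore M) M :=
    Cfsg.Agent.H47.BG12.complIn_cj hE0 (M.inv_mem hgM)
  have hYE : (P ⊔ Q : Subgroup G) ≤ MulAut.conj g⁻¹ • E0 := by
    intro v hv
    rw [mem_cj, inv_inv]
    apply hgY
    exact ⟨v, hv, by simp [MulAut.conj_apply]⟩
  set E : Subgroup G := MulAut.conj g⁻¹ • E0 with hEdef
  have hPE : P ≤ E := le_sup_left.trans hYE
  have hQE : Q ≤ E := le_sup_right.trans hYE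
  have hEM : E ≤ M := hE.1
  -- `Q ≤ ⁅E, E⁆`
  have hQD : Q ≤ ⁅E, E⁆ := (side_le_comm hS).trans (Subgroup.commutator_mono hQE hPE)
  have hDE : (⁅E, E⁆ : Subgroup G) ≤ E := Subgroup.commutator_le_self E
  have hnil : Group.IsNilpotent ↥(⁅E, E⁆ : Subgroup G) := (h15 M hS.hM E hE).1
  have hidx : ¬ q ∣ Q.relIndex ⁅E, E⁆ := by
    intro hd
    apply hS.hQS
    exact hd.trans (Dvd.intro _ (Subgroup.relIndex_mul_relIndex Q ⁅E, E⁆ M hQD (hDE.trans hEM)))
  -- every element of `E` normalizes `Q`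
  have hconj : ∀ e ∈ E, ∀ z ∈ Q, e * z * e⁻¹ ∈ Q := by
    intro e he z hz
    have hR : IsPGroup q (Q.map (MulAut.conj e).toMonoidHom) := hS.hQq.map _
    have hRD : Q.map (MulAut.conj e).toMonoidHom ≤ ⁅E, E⁆ := by
      rintro _ ⟨y, hy, rfl⟩
      exact conj_mem_comm he (hQD hy)
    exact le_of_nilpotent hnil hQD hS.hQq hidx hRD hR ⟨z, hz, rfl⟩
  have hEN : E ≤ normalizer (Q : Set G) := by
    intro e he
    rw [mem_normalizer_iff]
    intro z
    constructor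
    · intro hz
      exact hconj e he z hz
    · intro hz
      have := hconj e⁻¹ (inv_mem he) _ hz
      have h2 : e⁻¹ * (e * z * e⁻¹) * e⁻¹⁻¹ = z := by group
      rw [h2] at this
      exact this
  exact ⟨E, hE, hPE, hEN.trans hS.hNQ⟩

end Cfsg.Agent.H59.BG1312E

example {G : Type*} [Group G] [Finite G] (h50 : Cfsg.Agent.H58.BG10.St1350 G)
    (h15 : Cfsg.Agent.H58.BG10.St1415 G) (hSC : Cfsg.Agent.H57.BG12.StSigConj G)
    (hSig : Cfsg.Agent.H47.BG1312.StSig G) : Cfsg.Agent.H47.BG1312.StE G :=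
  Cfsg.Agent.H59.BG1312E.e h50 h15 hSC hSig
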