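import Mathlib
import Cfsg.Agent.H47.BG1312Defs
import Cfsg.Agent.H92.BG123

set_option autoImplicit false

/-!
# BG1312-ELT (piece of B&G Lemma 13.12, team project of helper47), helper59

In a configuration `Side M N P Q p q`, the subgroup `C_{M_α}(P)` contains an element `x` of prime
order in `α(M)`, and `M` is the only maximal subgroup over `C_G(x)`.
(Port of helper32's `H32.BG139.elt` from `SCfg` to `Side`.)
-/

namespace Cfsg.Agent.H59.BG1312Elt

open Cfsg Subgroup Cfsg.Agent.H58.BG10 Cfsg.Agent.H47.BG12 Cfsg.Agent.Lib.Helper30.BG134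
  Cfsg.Agent.Lib.Helper30.BG12T Cfsg.Agent.H47.BG1312
open scoped Pointwise

universe u

variable {G : Type u} [Group G]

theorem elt [Finite G] (hG : IsMinSimpleOddOrder G) (h03 : St1403 G) (h05 : St1405 G)
    (h23 : St1423 G) (hLR : StLR G) (hSig : StSig G) (hAl : StAlpha G) : StElt G := by
  intro M N P Q p q hS
  obtain ⟨hα1, hαβ⟩ := hAl M N P Q p q hS
  have hqσ : q ∉ sigma M := hSig M N P Q p q hS
  have hqα : q ∉ alpha M := fun h => hqσ (alpha_subset_sigma hG h03 hS.hM h)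
  have hNM : N ≠ M := by
    intro h
    apply hS.hnc 1
    rw [Cfsg.Agent.H63.Sig.cj_one, h]
  have hCN : M ⊓ centralizer (Q : Set G) ≤ N :=
    inf_le_right.trans ((Subgroup.centralizer_le_normalizer _).trans hS.hNQ)
  obtain ⟨hne, -⟩ := hLR M N P Q p q hS.hM hS.hp hS.hPM hS.hPc hS.hq hqα hS.hQM hS.hQq
    hS.hQ1 hS.hPQ hS.hfix hS.hN hNM hCN hα1
  obtain ⟨⟨g, hg⟩, hg1⟩ := (Subgroup.ne_bot_iff_exists_ne_one).mp hne
  have hg1' : g ≠ 1 := fun h => hg1 (Subtype.ext h)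
  have ho : orderOf g ≠ 1 := fun h => hg1' (orderOf_eq_one_iff.mp h)
  obtain ⟨s, hs, hsg⟩ := Nat.exists_prime_and_dvd ho
  have : Fact s.Prime := ⟨hs⟩
  have hxo : orderOf (g ^ (orderOf g / s)) = s :=
    orderOf_pow_orderOf_div (orderOf_pos g).ne' hsg
  have hx : g ^ (orderOf g / s) ∈ alphaCore M ⊓ centralizer (P : Set G) :=
    Subgroup.pow_mem _ hg _
  have hsα : s ∈ alpha M := by
    apply (h05 M hS.hM).1.2.1 s hs
    have := orderOf_dvd_natCard (⟨g ^ (orderOf g / s), hx.1⟩ : alphaCore M)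
    rwa [Subgroup.orderOf_mk, hxo] at this
  have hsσ : s ∈ sigma M := alpha_subset_sigma hG h03 hS.hM hsα
  have hαM : alphaCore M ≤ M := (h05 M hS.hM).1.1
  have hXM : zpowers (g ^ (orderOf g / s)) ≤ M := by
    rw [zpowers_le]; exact hαM hx.1
  have hXcard : Nat.card (zpowers (g ^ (orderOf g / s))) = s := by
    rw [Nat.card_zpowers, hxo]
  obtain ⟨S⟩ : Nonempty (Sylow s ↥(sigmaCore M)) := inferInstance
  obtain ⟨⟨h1, h2⟩, -⟩ := h23 M hS.hM s hsσ (zpowers (g ^ (orderOf g / s))) hXM hXcard S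
    (Or.inl (hαβ s hsα))
  refine ⟨g ^ (orderOf g / s), hx.1, hx.2, ?_, ?_, h1, h2⟩
  · rw [hxo]; exact hs
  · rw [hxo]; exact hsα

end Cfsg.Agent.H59.BG1312Elt

example {G : Type*} [Group G] [Finite G] (hG : Cfsg.IsMinSimpleOddOrder G)
    (h03 : Cfsg.Agent.H58.BG10.St1403 G) (h05 : Cfsg.Agent.H58.BG10.St1405 G)
    (h23 : Cfsg.Agent.Lib.Helper30.BG12T.St1423 G) (hLR : Cfsg.Agent.Lib.Helper30.BG134.StLR G)
    (hSig : Cfsg.Agent.H47.BG1312.StSig G) (hAl : Cfsg.Agent.H47.BG1312.StAlpha G) :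
    Cfsg.Agent.H47.BG1312.StElt G :=
  Cfsg.Agent.H59.BG1312Elt.elt hG h03 h05 h23 hLR hSig hAl
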