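import Mathlib
import Cfsg.Agent.H33.C3.Defs

set_option autoImplicit false

/-!
# C3-M24CENT (piece of S2071, Out(Co3) = 1; team project of helper33), helper59

The centraliser of the doubling map `beta` in the stabiliser of the points `none` and `some 0`
in `M24` is `⟨beta⟩`: a permutation commuting with `beta` and fixing the two points is
`y ↦ a y` on the squares and `y ↦ b y` on the non-squares; only the 11 maps `y ↦ 2 ^ k y` keep
the 12 basis words of the code inside the code (kernel check over the 22 · 22 candidates).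
-/

namespace Cfsg.Agent.H59.C3

open Cfsg Cfsg.Agent.H9
open Cfsg.Agent.H33.C3 (beta StM24Cent)

/-- the nonzero squares modulo 23 (bit mask `0x5335e`) -/
def mcSq (y : ZMod 23) : Bool := Nat.testBit 0x5335e y.val

/-- the candidate map: `y ↦ a y` on the squares, `y ↦ b y` on the other residues -/
def mcCand (a b : ZMod 23) : GolayPt → GolayPt
  | none => none
  | some y => if mcSq y = true then some (y * a) else some (y * b)

/-- the packed mcCode (5 bits per point) of `mcCand a b` -/
def mcCode (a b : ZMod 23) : ℕ :=
  (List.range 24).foldl (fun acc i => acc + gIdx (mcCand a b (gPt i)) * 2 ^ (5 * i)) 0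

theorem mcCode_rep : ∀ a b : ZMod 23, ∀ p : GolayPt,
    gIdx (mcCand a b p) = lk (mcCode a b) (gIdx p) := by decide +kernel

theorem mcImg_lt : ∀ a b : ZMod 23, ∀ n ∈ basisL, imgN (mcCode a b) n < 2 ^ 24 := by
  decide +kernel

theorem mcKill : ∀ a b : ZMod 23, a ≠ 0 → b ≠ 0 →
    basisL.all (fun n => isGolay (imgN (mcCode a b) n)) = true → a = b ∧ mcSq a = true := by
  decide +kernel

theorem mcSq_cases : ∀ y : ZMod 23, (mcSq y = true → ∃ k : Fin 11, y = 2 ^ (k : ℕ)) ∧
    (y ≠ 0 → mcSq y = false → ∃ k : Fin 11, y = -(2 ^ (k : ℕ))) := by decide +kernel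

theorem mcCand_beta : ∀ k : Fin 11, ∀ p : GolayPt,
    mcCand (2 ^ (k : ℕ)) (2 ^ (k : ℕ)) p = (beta ^ (k : ℕ)) p := by decide +kernel

theorem mcBeta_some (y : ZMod 23) : beta (some y) = some (2 * y) := rfl

theorem m24Cent : StM24Cent := by
  intro σ hσ hinf h0 hc
  have hcomm : ∀ p, σ (beta p) = beta (σ p) := by
    intro p
    have := congrArg (fun f : Equiv.Perm GolayPt => f p) hc
    simpa [Equiv.Perm.mul_apply] using this
  obtain ⟨a, ha⟩ : ∃ a, σ (some 1) = some a := by
    cases h : σ (some 1) with
    | none => exact absurd (σ.injective (h.trans hinf.symm)) (by decide)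
    | some a => exact ⟨a, rfl⟩
  obtain ⟨c, hc'⟩ : ∃ c, σ (some (-1)) = some c := by
    cases h : σ (some (-1)) with
    | none => exact absurd (σ.injective (h.trans hinf.symm)) (by decide)
    | some c => exact ⟨c, rfl⟩
  have ha0 : a ≠ 0 := by
    rintro rfl
    exact absurd (σ.injective (ha.trans h0.symm)) (by decide)
  have hc0 : c ≠ 0 := by
    rintro rfl
    exact absurd (σ.injective (hc'.trans h0.symm)) (by decide)
  have hpow1 : ∀ k : ℕ, σ (some ((2 : ZMod 23) ^ k)) = some (2 ^ k * a) := by
    intro k
    induction k with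
    | zero => simpa using ha
    | succ k ih =>
      have h1 : (some ((2 : ZMod 23) ^ (k + 1)) : GolayPt) = beta (some (2 ^ k)) := by
        rw [mcBeta_some, pow_succ, mul_comm]
      rw [h1, hcomm, ih, mcBeta_some, pow_succ]
      congr 1
      ring
  have hpow2 : ∀ k : ℕ, σ (some (-((2 : ZMod 23) ^ k))) = some (2 ^ k * c) := by
    intro k
    induction k with
    | zero => simpa using hc'
    | succ k ih =>
      have h1 : (some (-((2 : ZMod 23) ^ (k + 1))) : GolayPt) = beta (some (-(2 ^ k))) := by
        rw [mcBeta_some, pow_succ]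
        congr 1
        ring
      rw [h1, hcomm, ih, mcBeta_some, pow_succ]
      congr 1
      ring
  have hform : ∀ p, σ p = mcCand a (-c) p := by
    intro p
    cases p with
    | none => exact hinf
    | some y =>
      by_cases hy : mcSq y = true
      · obtain ⟨k, rfl⟩ := (mcSq_cases y).1 hy
        rw [hpow1]
        simp only [mcCand, hy, if_true]
      · have hy' : mcSq y = false := by simpa using hy
        by_cases hy0 : y = 0
        · subst hy0
          rw [h0]
          simp only [mcCand, hy', Bool.false_eq_true, if_false, zero_mul]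
        · obtain ⟨k, rfl⟩ := (mcSq_cases y).2 hy0 hy'
          rw [hpow2]
          simp only [mcCand, hy', Bool.false_eq_true, if_false]
          congr 1
          ring
  have hrep : Rep (mcCode a (-c)) σ := by
    intro p
    rw [hform]
    exact mcCode_rep a (-c) p
  have hchk : basisL.all (fun n => isGolay (imgN (mcCode a (-c)) n)) = true := by
    rw [List.all_eq_true]
    intro n hn
    have h1 : fs n ∈ supports (golayCode : Set (GolayPt → ZMod 2)) :=
      ⟨dec n, basis_mem n hn, support₂_dec n⟩
    have h2 := smul_mem_supports hσ h1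
    rw [smul_fs hrep] at h2
    exact (fs_mem_supports_iff (mcImg_lt a (-c) n hn)).mp h2
  obtain ⟨hab, hsq⟩ := mcKill a (-c) ha0 (neg_ne_zero.mpr hc0) hchk
  obtain ⟨k, hk⟩ := (mcSq_cases a).1 hsq
  have hσ : σ = beta ^ (k : ℕ) := by
    refine Equiv.ext (fun p => ?_)
    rw [hform, ← hab, hk]
    exact mcCand_beta k p
  rw [hσ]
  exact Subgroup.npow_mem_zpowers beta k

end Cfsg.Agent.H59.C3

example : Cfsg.Agent.H33.C3.StM24Cent := Cfsg.Agent.H59.C3.m24Cent
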