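import Mathlib
import Cfsg.Agent.H39.FcDefs

/-!
# S4291-AUTQ: automorphisms of a perfect group act faithfully on the central quotient
-/

set_option autoImplicit false

namespace Cfsg.Agent.H59.Fc

universe u

/-- The automorphism of `L ⧸ center L` induced by an automorphism of `L`. -/
noncomputable def autQ {L : Type u} [Group L] (φ : MulAut L) : MulAut (L ⧸ Subgroup.center L) :=
  QuotientGroup.congr (Subgroup.center L) (Subgroup.center L) φ
    (Subgroup.characteristic_iff_map_eq.mp Subgroup.centerCharacteristic φ)

theorem autQ_mk {L : Type u} [Group L] (φ : MulAut L) (x : L) :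
    autQ φ (QuotientGroup.mk x) = QuotientGroup.mk (φ x) := by
  unfold autQ
  exact QuotientGroup.congr_mk _ _ _ _ _

/-- The induced action as a monoid homomorphism. -/
noncomputable def autQHom (L : Type u) [Group L] : MulAut L →* MulAut (L ⧸ Subgroup.center L) where
  toFun := autQ
  map_one' := by
    ext y
    induction y using QuotientGroup.induction_on with
    | H x => rw [autQ_mk]; rfl
  map_mul' φ ψ := by
    ext y
    induction y using QuotientGroup.induction_on with
    | H x =>
      rw [autQ_mk, MulAut.mul_apply, MulAut.mul_apply, autQ_mk, autQ_mk]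

theorem stAutQ : Cfsg.Agent.H39.Fc.StAutQ.{u} := by
  intro L _ hperf
  refine ⟨autQHom L, ?_, fun φ x => autQ_mk φ x⟩
  rw [injective_iff_map_eq_one]
  intro φ hφ
  have hc : ∀ x : L, φ x * x⁻¹ ∈ Subgroup.center L := by
    intro x
    have h1 : autQHom L φ (QuotientGroup.mk x) = QuotientGroup.mk x := by
      rw [hφ]; rfl
    have h2 : (QuotientGroup.mk (φ x) : L ⧸ Subgroup.center L) = QuotientGroup.mk x := by
      rw [← h1]; exact (autQ_mk φ x).symm
    have h3 : (φ x)⁻¹ * x ∈ Subgroup.center L := QuotientGroup.eq.mp h2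
    have h4 : φ x * x⁻¹ = ((φ x)⁻¹ * x)⁻¹ := by
      rw [Subgroup.mem_center_iff] at h3
      have := h3 (φ x)
      rw [mul_inv_rev, inv_inv]
      -- φ x * ((φ x)⁻¹ * x) = ((φ x)⁻¹ * x) * φ x
      have h5 : x = (φ x)⁻¹ * x * φ x := by
        rw [← this]; group
      calc φ x * x⁻¹ = x⁻¹ * (x * φ x * x⁻¹) := by group
        _ = x⁻¹ * φ x := by
          congr 1
          have h6 := h3 x
          -- x * ((φ x)⁻¹ * x) = (φ x)⁻¹ * x * x
          have h7 : x * (φ x)⁻¹ = (φ x)⁻¹ * x := by
            have : x * ((φ x)⁻¹ * x) * x⁻¹ = (φ x)⁻¹ * x * x * x⁻¹ := by rw [h6]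
            simpa [mul_assoc] using this
          have h8 : φ x * x = x * φ x := by
            have : φ x * (x * (φ x)⁻¹) * φ x = φ x * ((φ x)⁻¹ * x) * φ x := by rw [h7]
            simpa [mul_assoc] using this
          rw [← h8]; group
    rw [h4]
    exact inv_mem h3
  -- the homomorphism `x ↦ φ x * x⁻¹` into the centre
  let c : L →* Subgroup.center L :=
    { toFun := fun x => ⟨φ x * x⁻¹, hc x⟩
      map_one' := by
        apply Subtype.ext
        simp
      map_mul' := by
        intro x y
        apply Subtype.ext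
        change φ (x * y) * (x * y)⁻¹ = (φ x * x⁻¹) * (φ y * y⁻¹)
        have hy := hc y
        rw [Subgroup.mem_center_iff] at hy
        have := hy x⁻¹
        rw [map_mul, mul_inv_rev]
        calc φ x * φ y * (y⁻¹ * x⁻¹) = φ x * ((φ y * y⁻¹) * x⁻¹) := by group
          _ = φ x * (x⁻¹ * (φ y * y⁻¹)) := by rw [this]
          _ = φ x * x⁻¹ * (φ y * y⁻¹) := by group }
  have hker : c.ker = ⊤ := by
    have hle : commutator L ≤ c.ker := by
      rw [commutator_def, Subgroup.commutator_le]
      intro x _ y _
      rw [MonoidHom.mem_ker, map_commutatorElement, commutatorElement_eq_one_iff_commute]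
      apply Subtype.ext
      have := (c y).2
      rw [Subgroup.mem_center_iff] at this
      exact this (c x).1
    rw [hperf] at hle
    exact top_le_iff.mp hle
  ext x
  have hx : x ∈ c.ker := by rw [hker]; trivial
  rw [MonoidHom.mem_ker] at hx
  have hx' : φ x * x⁻¹ = 1 := congrArg Subtype.val hx
  change φ x = x
  exact mul_inv_eq_one.mp hx'

end Cfsg.Agent.H59.Fc
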