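import Mathlib
import Cfsg.Agent.H39.FcDefs

/-!
# S4291-CYCAUT: an element of odd order normalizing a cyclic 2-group centralizes it
-/

set_option autoImplicit false

namespace Cfsg.Agent.H59.Fc

universe u

/-- The order of a unit of `ZMod (2 ^ k)` divides `2 ^ k`. -/
theorem orderOf_units_two_pow_dvd (k : ℕ) (u : (ZMod (2 ^ k))ˣ) : orderOf u ∣ 2 ^ k := by
  have h1 : orderOf u ∣ Fintype.card (ZMod (2 ^ k))ˣ := orderOf_dvd_card
  rw [ZMod.card_units_eq_totient] at h1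
  refine h1.trans ?_
  rcases k with _ | k
  · simp
  · rw [Nat.totient_prime_pow_succ Nat.prime_two]
    simp [pow_succ]

theorem stCycAut : Cfsg.Agent.H39.Fc.StCycAut.{u} := by
  intro G _ _ T hT hcyc g hg hnorm
  obtain ⟨t0, ht0⟩ := hcyc.exists_generator
  obtain ⟨k, hk⟩ := IsPGroup.iff_card.mp hT
  have hord : orderOf t0 = 2 ^ k := by
    rw [orderOf_eq_card_of_forall_mem_zpowers ht0, hk]
  have hord' : orderOf (t0 : G) = 2 ^ k := by rw [Subgroup.orderOf_coe, hord]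
  have h1 := hnorm t0 t0.2
  obtain ⟨m, hm⟩ : ∃ m : ℕ, g * t0 * g⁻¹ = (t0 : G) ^ m := by
    have h := ht0 ⟨_, h1⟩
    rw [← mem_powers_iff_mem_zpowers] at h
    obtain ⟨m, hm⟩ := h
    refine ⟨m, ?_⟩
    have := congrArg Subtype.val hm
    simpa using this.symm
  have h2 : ∀ j : ℕ, g ^ j * t0 * (g ^ j)⁻¹ = (t0 : G) ^ (m ^ j) := by
    intro j
    induction j with
    | zero => simp
    | succ j ih =>
      calc g ^ (j + 1) * t0 * (g ^ (j + 1))⁻¹ = g * (g ^ j * t0 * (g ^ j)⁻¹) * g⁻¹ := by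
            rw [pow_succ']; group
        _ = g * (t0 : G) ^ (m ^ j) * g⁻¹ := by rw [ih]
        _ = (g * t0 * g⁻¹) ^ (m ^ j) := (conj_pow).symm
        _ = ((t0 : G) ^ m) ^ (m ^ j) := by rw [hm]
        _ = (t0 : G) ^ (m ^ (j + 1)) := by rw [← pow_mul, pow_succ']
  have h3 := h2 (orderOf g)
  rw [pow_orderOf_eq_one] at h3
  simp only [one_mul, inv_one, mul_one] at h3
  have h4 : ((m : ZMod (2 ^ k))) ^ (orderOf g) = 1 := by
    have h5 : m ^ orderOf g ≡ 1 [MOD orderOf (t0 : G)] := by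
      rw [← pow_eq_pow_iff_modEq]; simpa using h3.symm
    rw [hord'] at h5
    have h6 := (ZMod.natCast_eq_natCast_iff _ _ _).mpr h5
    simpa using h6
  have hgpos : orderOf g ≠ 0 := by
    rcases hg with ⟨r, hr⟩; omega
  obtain ⟨u, hu⟩ := IsUnit.of_pow_eq_one h4 hgpos
  have hu1 : u ^ orderOf g = 1 := by
    apply Units.ext
    rw [Units.val_pow_eq_pow_val, hu, h4]; rfl
  have hu2 : orderOf u ∣ orderOf g := orderOf_dvd_of_pow_eq_one hu1
  have hu3 : orderOf u ∣ 2 ^ k := orderOf_units_two_pow_dvd k u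
  have hcop : Nat.Coprime (orderOf g) (2 ^ k) :=
    Nat.Coprime.pow_right k (Nat.Coprime.symm (Nat.coprime_two_left.mpr hg))
  have hu4 : orderOf u = 1 := Nat.dvd_one.mp (by rw [← hcop]; exact Nat.dvd_gcd hu2 hu3)
  have hu5 : u = 1 := orderOf_eq_one_iff.mp hu4
  have hm1 : (m : ZMod (2 ^ k)) = ((1 : ℕ) : ZMod (2 ^ k)) := by
    rw [← hu, hu5]; simp
  have hm2 : m ≡ 1 [MOD orderOf (t0 : G)] := by
    rw [hord']
    exact (ZMod.natCast_eq_natCast_iff m 1 (2 ^ k)).mp hm1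
  have hm3 : (t0 : G) ^ m = t0 := by
    have := (pow_eq_pow_iff_modEq (x := (t0 : G))).mpr hm2
    simpa using this
  have hcomm : g * t0 = t0 * g := by
    rw [hm3] at hm
    calc g * t0 = g * t0 * g⁻¹ * g := by group
      _ = t0 * g := by rw [hm]
  intro t ht
  obtain ⟨z, hz⟩ := ht0 ⟨t, ht⟩
  have hz' : (t0 : G) ^ z = t := by
    have := congrArg Subtype.val hz
    simpa using this
  rw [← hz']
  exact ((Commute.zpow_right (show Commute g (t0 : G) from hcomm) z)).eq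

end Cfsg.Agent.H59.Fc
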