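import Mathlib

/-!
# helper59: arithmetic for Brauer's theorem on Sylow 2-subgroups of type `(2^m, 2^m)`

* `gram_structure`: integer vectors `v k` (indexed by `k : κ`) on a finite set `s` with
  `v k o = 1`, norm `4` and pairwise inner products `3` or `4`, five of them pairwise with inner
  product `3`: then there are two common coordinates `p, q` and an "exceptional" coordinate `z k`.
* `dioph`: the final diophantine step.
-/

set_option autoImplicit false

namespace Cfsg.Agent.H59.HC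

open Finset

theorem int_sq_le_three (a : ℤ) (h : a * a ≤ 3) : a = 0 ∨ a = 1 ∨ a = -1 := by
  have h1 : -2 < a := by nlinarith
  have h2 : a < 2 := by nlinarith
  omega

section Gram

variable {ι κ : Type*} [DecidableEq ι]

theorem gram_structure (s : Finset ι) (o : ι) (ho : o ∈ s) (v : κ → ι → ℤ)
    (hvo : ∀ k, v k o = 1)
    (hG : ∀ k l, ∑ i ∈ s, v k i * v l i = 3 ∨ ∑ i ∈ s, v k i * v l i = 4)
    (hnorm : ∀ k, ∑ i ∈ s, v k i * v k i = 4)
    (k₀ k₁ k₂ k₃ k₄ : κ)
    (h01 : ∑ i ∈ s, v k₀ i * v k₁ i = 3) (h02 : ∑ i ∈ s, v k₀ i * v k₂ i = 3)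
    (h03 : ∑ i ∈ s, v k₀ i * v k₃ i = 3) (h04 : ∑ i ∈ s, v k₀ i * v k₄ i = 3)
    (h12 : ∑ i ∈ s, v k₁ i * v k₂ i = 3) (h13 : ∑ i ∈ s, v k₁ i * v k₃ i = 3)
    (h14 : ∑ i ∈ s, v k₁ i * v k₄ i = 3) (h23 : ∑ i ∈ s, v k₂ i * v k₃ i = 3)
    (h24 : ∑ i ∈ s, v k₂ i * v k₄ i = 3) (h34 : ∑ i ∈ s, v k₃ i * v k₄ i = 3) :
    ∃ (p q : ι) (εp εq : ℤ) (z : κ → ι) (εz : κ → ℤ),
      p ∈ s ∧ q ∈ s ∧ p ≠ o ∧ q ≠ o ∧ p ≠ q ∧ (εp = 1 ∨ εp = -1) ∧ (εq = 1 ∨ εq = -1) ∧
      (∀ k, z k ∈ s ∧ z k ≠ o ∧ z k ≠ p ∧ z k ≠ q ∧ (εz k = 1 ∨ εz k = -1)) ∧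
      (∀ k, ∀ i ∈ s, v k i = (if i = o then 1 else 0) + (if i = p then εp else 0) +
        (if i = q then εq else 0) - (if i = z k then εz k else 0)) ∧
      (∀ k l, z k = z l ↔ ∀ i ∈ s, v k i = v l i) := by
  classical
  have hsymm : ∀ k l, ∑ i ∈ s, v k i * v l i = ∑ i ∈ s, v l i * v k i := fun k l =>
    Finset.sum_congr rfl (fun i _ => mul_comm _ _)
  -- Step A
  have hE : ∀ k, ∑ i ∈ s.erase o, v k i * v k i = 3 := by
    intro k
    have h := Finset.add_sum_erase s (fun i => v k i * v k i) ho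
    simp only [hvo] at h
    have h2 := hnorm k
    linarith
  have hA : ∀ k, ∀ i ∈ s.erase o, v k i = 0 ∨ v k i = 1 ∨ v k i = -1 := by
    intro k i hi
    apply int_sq_le_three
    have h := Finset.single_le_sum (f := fun i => v k i * v k i)
      (fun j _ => mul_self_nonneg (v k j)) hi
    rw [hE k] at h
    exact h
  -- Step B
  have hB : ∀ k l, ∑ i ∈ s, v k i * v l i = 4 → ∀ i ∈ s, v k i = v l i := by
    intro k l h
    have h0 : ∑ i ∈ s, (v k i - v l i) * (v k i - v l i) = 0 := by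
      have : ∀ i ∈ s, (v k i - v l i) * (v k i - v l i) =
          v k i * v k i + v l i * v l i - 2 * (v k i * v l i) := fun i _ => by ring
      rw [Finset.sum_congr rfl this, Finset.sum_sub_distrib, Finset.sum_add_distrib,
        ← Finset.mul_sum, hnorm k, hnorm l, h]
      norm_num
    intro i hi
    have h1 := (Finset.sum_eq_zero_iff_of_nonneg
      (fun j _ => mul_self_nonneg (v k j - v l j))).mp h0 i hi
    have h2 := mul_self_eq_zero.mp h1
    linarith
  -- the supports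
  obtain ⟨T, hT⟩ : ∃ T : κ → Finset ι, T = fun k => (s.erase o).filter (fun i => v k i ≠ 0) :=
    ⟨_, rfl⟩
  have hTmem : ∀ k i, i ∈ T k ↔ (i ≠ o ∧ i ∈ s) ∧ v k i ≠ 0 := by
    intro k i
    rw [hT]
    simp only [Finset.mem_filter, Finset.mem_erase]
  have hTpm : ∀ k i, i ∈ T k → v k i = 1 ∨ v k i = -1 := by
    intro k i hi
    obtain ⟨⟨h1, h2⟩, h3⟩ := (hTmem k i).mp hi
    rcases hA k i (Finset.mem_erase.mpr ⟨h1, h2⟩) with h | h | h
    · exact absurd h h3
    · exact Or.inl h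
    · exact Or.inr h
  have hTsub : ∀ k, T k ⊆ s.erase o := by
    intro k
    rw [hT]
    exact Finset.filter_subset _ _
  -- Step C
  have hC : ∀ k, (T k).card = 3 := by
    intro k
    have h1 : ∑ i ∈ s.erase o, v k i * v k i = ∑ i ∈ T k, (1 : ℤ) := by
      rw [hT, Finset.sum_filter]
      apply Finset.sum_congr rfl
      intro i hi
      rcases hA k i hi with h | h | h <;> simp [h]
    rw [hE k] at h1
    simp only [Finset.sum_const, nsmul_eq_mul, mul_one] at h1
    exact_mod_cast h1.symm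
  -- Step D
  have hD : ∀ k l, ∑ i ∈ s, v k i * v l i = 3 →
      (T k ∩ T l).card = 2 ∧ ∀ i ∈ T k ∩ T l, v k i = v l i := by
    intro k l h
    have h1 : ∑ i ∈ s.erase o, v k i * v l i = 2 := by
      have h2 := Finset.add_sum_erase s (fun i => v k i * v l i) ho
      simp only [hvo] at h2
      linarith
    have h3 : ∑ i ∈ T k ∩ T l, v k i * v l i = 2 := by
      rw [← h1]
      apply Finset.sum_subset (fun i hi => hTsub k (Finset.mem_inter.mp hi).1)
      intro i hi hni
      by_cases hk : v k i = 0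
      · rw [hk, zero_mul]
      · by_cases hl : v l i = 0
        · rw [hl, mul_zero]
        · exfalso
          apply hni
          have hi' := Finset.mem_erase.mp hi
          exact Finset.mem_inter.mpr ⟨(hTmem k i).mpr ⟨hi', hk⟩, (hTmem l i).mpr ⟨hi', hl⟩⟩
    have hx : ∀ i ∈ T k ∩ T l, (v k i * v l i = 1 ∧ v k i = v l i) ∨ v k i * v l i = -1 := by
      intro i hi
      obtain ⟨hik, hil⟩ := Finset.mem_inter.mp hi
      rcases hTpm k i hik with h | h <;> rcases hTpm l i hil with h' | h' <;> simp [h, h']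
    have h4 : ∑ i ∈ T k ∩ T l, (1 - v k i * v l i) = ((T k ∩ T l).card : ℤ) - 2 := by
      rw [Finset.sum_sub_distrib, h3]
      simp
    have h5 : (2 : ℤ) ∣ ∑ i ∈ T k ∩ T l, (1 - v k i * v l i) := by
      apply Finset.dvd_sum
      intro i hi
      rcases hx i hi with ⟨h, -⟩ | h <;> rw [h] <;> norm_num
    have h6 : 0 ≤ ∑ i ∈ T k ∩ T l, (1 - v k i * v l i) := by
      apply Finset.sum_nonneg
      intro i hi
      rcases hx i hi with ⟨h, -⟩ | h <;> rw [h] <;> norm_num
    have h7 : (T k ∩ T l).card ≤ 3 := by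
      rw [← hC k]
      exact Finset.card_le_card Finset.inter_subset_left
    rw [h4] at h5 h6
    have h8 : (T k ∩ T l).card = 2 := by
      obtain ⟨c, hc⟩ := h5
      omega
    refine ⟨h8, ?_⟩
    intro i hi
    have h9 : ∑ i ∈ T k ∩ T l, (1 - v k i * v l i) = 0 := by rw [h4, h8]; norm_num
    have h10 := (Finset.sum_eq_zero_iff_of_nonneg (by
      intro j hj
      rcases hx j hj with ⟨h, -⟩ | h <;> rw [h] <;> norm_num)).mp h9 i hi
    rcases hx i hi with ⟨-, h⟩ | h
    · exact h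
    · rw [h] at h10; norm_num at h10
  have hTeq : ∀ k l, (∀ i ∈ s, v k i = v l i) → T k = T l := by
    intro k l h
    ext i
    rw [hTmem, hTmem]
    constructor
    · rintro ⟨⟨h1, h2⟩, h3⟩
      exact ⟨⟨h1, h2⟩, by rw [← h i h2]; exact h3⟩
    · rintro ⟨⟨h1, h2⟩, h3⟩
      exact ⟨⟨h1, h2⟩, by rw [h i h2]; exact h3⟩
  -- Step E
  obtain ⟨U, hU⟩ : ∃ U : Finset ι, U = T k₀ ∩ T k₁ := ⟨_, rfl⟩
  obtain ⟨hUc, hUv⟩ := hD k₀ k₁ h01
  rw [← hU] at hUc hUv
  have hU0 : U ⊆ T k₀ := by rw [hU]; exact Finset.inter_subset_left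
  have hU1 : U ⊆ T k₁ := by rw [hU]; exact Finset.inter_subset_right
  have hW : (T k₀ ∪ T k₁).card = 4 := by
    have := Finset.card_union_add_card_inter (T k₀) (T k₁)
    rw [← hU, hUc, hC, hC] at this
    omega
  have hEE : ∀ k, ∑ i ∈ s, v k i * v k₀ i = 3 → ∑ i ∈ s, v k i * v k₁ i = 3 →
      (T k ∩ U).card = 2 ∨ ((T k ∩ U).card = 1 ∧ T k ⊆ T k₀ ∪ T k₁) := by
    intro k hk0 hk1
    have h1 := Finset.card_union_add_card_inter (T k ∩ T k₀) (T k ∩ T k₁)
    rw [← Finset.inter_union_distrib_left, ← Finset.inter_inter_distrib_left, ← hU,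
      (hD k k₀ hk0).1, (hD k k₁ hk1).1] at h1
    have h2 : (T k ∩ (T k₀ ∪ T k₁)).card ≤ 3 := by
      rw [← hC k]; exact Finset.card_le_card Finset.inter_subset_left
    have h3 : (T k ∩ U).card ≤ 2 := by
      rw [← hUc]; exact Finset.card_le_card Finset.inter_subset_right
    have h4 : (T k ∩ U).card = 2 ∨ (T k ∩ U).card = 1 := by omega
    rcases h4 with h4 | h4
    · exact Or.inl h4
    · refine Or.inr ⟨h4, ?_⟩
      have h5 : T k ∩ (T k₀ ∪ T k₁) = T k :=
        Finset.eq_of_subset_of_card_le Finset.inter_subset_left (by rw [hC k]; omega)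
      rw [← h5]
      exact Finset.inter_subset_right
  -- Step F/G : a good index kills the bad ones
  have hFG : ∀ g, ∑ i ∈ s, v g i * v k₀ i = 3 → ∑ i ∈ s, v g i * v k₁ i = 3 →
      (T g ∩ U).card = 2 → ∀ k, ((T k ∩ U).card = 1 ∧ T k ⊆ T k₀ ∪ T k₁) → False := by
    intro g hg0 hg1 hgU k ⟨hkU, hksub⟩
    have hUg : U ⊆ T g := by
      have : T g ∩ U = U :=
        Finset.eq_of_subset_of_card_le Finset.inter_subset_right (by rw [hgU, hUc])
      rw [← this]; exact Finset.inter_subset_left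
    have hg0' : T g ∩ T k₀ = U := by
      symm
      apply Finset.eq_of_subset_of_card_le (Finset.subset_inter hUg hU0)
      rw [(hD g k₀ hg0).1, hUc]
    have hg1' : T g ∩ T k₁ = U := by
      symm
      apply Finset.eq_of_subset_of_card_le (Finset.subset_inter hUg hU1)
      rw [(hD g k₁ hg1).1, hUc]
    have hsub : T k ∩ T g ⊆ T k ∩ U := by
      intro i hi
      obtain ⟨h1, h2⟩ := Finset.mem_inter.mp hi
      refine Finset.mem_inter.mpr ⟨h1, ?_⟩
      rcases Finset.mem_union.mp (hksub h1) with h | h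
      · rw [← hg0']; exact Finset.mem_inter.mpr ⟨h2, h⟩
      · rw [← hg1']; exact Finset.mem_inter.mpr ⟨h2, h⟩
    have hle : (T k ∩ T g).card ≤ 1 := by
      rw [← hkU]; exact Finset.card_le_card hsub
    rcases hG k g with h | h
    · have := (hD k g h).1
      omega
    · have := hTeq k g (hB k g h)
      rw [this, Finset.inter_self, hC] at hle
      omega
  -- Step H : one of k₂ k₃ k₄ is good
  have hbad : ∀ k, ((T k ∩ U).card = 1 ∧ T k ⊆ T k₀ ∪ T k₁) →
      ∃ c, c ∈ U ∧ c ∉ T k ∧ c ∈ T k₀ ∪ T k₁ := by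
    intro k ⟨hkU, _⟩
    have h1 : (U \ T k).card = 1 := by
      have := Finset.card_sdiff_add_card_inter U (T k)
      rw [Finset.inter_comm, hkU, hUc] at this
      omega
    obtain ⟨c, hc⟩ := Finset.card_eq_one.mp h1
    have hc' : c ∈ U \ T k := by rw [hc]; exact Finset.mem_singleton_self c
    obtain ⟨h2, h3⟩ := Finset.mem_sdiff.mp hc'
    exact ⟨c, h2, h3, Finset.mem_union_left _ (hU0 h2)⟩
  have hdist : ∀ k l, ∑ i ∈ s, v k i * v l i = 3 → T k ⊆ T k₀ ∪ T k₁ → T l ⊆ T k₀ ∪ T k₁ →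
      ∀ c, c ∈ T k₀ ∪ T k₁ → c ∉ T k → c ∉ T l → False := by
    intro k l hkl hk hl c hc hck hcl
    have h1 : (T k ∪ T l).card = 4 := by
      have := Finset.card_union_add_card_inter (T k) (T l)
      rw [(hD k l hkl).1, hC, hC] at this
      omega
    have h2 : T k ∪ T l ⊆ (T k₀ ∪ T k₁).erase c := by
      intro i hi
      rw [Finset.mem_erase]
      rcases Finset.mem_union.mp hi with h | h
      · exact ⟨fun h' => hck (h' ▸ h), hk h⟩
      · exact ⟨fun h' => hcl (h' ▸ h), hl h⟩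
    have h3 := Finset.card_le_card h2
    rw [Finset.card_erase_of_mem hc, hW, h1] at h3
    omega
  have h20 : ∑ i ∈ s, v k₂ i * v k₀ i = 3 := by rw [hsymm]; exact h02
  have h21 : ∑ i ∈ s, v k₂ i * v k₁ i = 3 := by rw [hsymm]; exact h12
  have h30 : ∑ i ∈ s, v k₃ i * v k₀ i = 3 := by rw [hsymm]; exact h03
  have h31 : ∑ i ∈ s, v k₃ i * v k₁ i = 3 := by rw [hsymm]; exact h13
  have h40 : ∑ i ∈ s, v k₄ i * v k₀ i = 3 := by rw [hsymm]; exact h04
  have h41 : ∑ i ∈ s, v k₄ i * v k₁ i = 3 := by rw [hsymm]; exact h14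
  have hnobad : ∀ k, ((T k ∩ U).card = 1 ∧ T k ⊆ T k₀ ∪ T k₁) → False := by
    rcases hEE k₂ h20 h21 with hg | hb2
    · exact hFG k₂ h20 h21 hg
    rcases hEE k₃ h30 h31 with hg | hb3
    · exact hFG k₃ h30 h31 hg
    rcases hEE k₄ h40 h41 with hg | hb4
    · exact hFG k₄ h40 h41 hg
    exfalso
    obtain ⟨c2, hc2U, hc2T, hc2W⟩ := hbad k₂ hb2
    obtain ⟨c3, hc3U, hc3T, hc3W⟩ := hbad k₃ hb3
    obtain ⟨c4, hc4U, hc4T, hc4W⟩ := hbad k₄ hb4
    have d23 : c2 ≠ c3 := fun h => hdist k₂ k₃ h23 hb2.2 hb3.2 c2 hc2W hc2T (h ▸ hc3T)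
    have d24 : c2 ≠ c4 := fun h => hdist k₂ k₄ h24 hb2.2 hb4.2 c2 hc2W hc2T (h ▸ hc4T)
    have d34 : c3 ≠ c4 := fun h => hdist k₃ k₄ h34 hb3.2 hb4.2 c3 hc3W hc3T (h ▸ hc4T)
    have hsub : ({c2, c3, c4} : Finset ι) ⊆ U := by
      intro i hi
      simp only [Finset.mem_insert, Finset.mem_singleton] at hi
      rcases hi with rfl | rfl | rfl <;> assumption
    have h3 := Finset.card_le_card hsub
    rw [Finset.card_eq_three.mpr ⟨c2, c3, c4, d23, d24, d34, rfl⟩, hUc] at h3
    omega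
  -- Step I
  have hI : ∀ k, U ⊆ T k ∧ ∀ i ∈ U, v k i = v k₀ i := by
    intro k
    rcases hG k k₀ with h0 | h0
    · rcases hG k k₁ with h1 | h1
      · rcases hEE k h0 h1 with hg | hb
        · have hUk : U ⊆ T k := by
            have : T k ∩ U = U :=
              Finset.eq_of_subset_of_card_le Finset.inter_subset_right (by rw [hg, hUc])
            rw [← this]; exact Finset.inter_subset_left
          refine ⟨hUk, fun i hi => ?_⟩
          exact (hD k k₀ h0).2 i (Finset.mem_inter.mpr ⟨hUk hi, hU0 hi⟩)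
        · exact absurd hb (hnobad k)
      · have hv := hB k k₁ h1
        have hTk := hTeq k k₁ hv
        refine ⟨by rw [hTk]; exact hU1, fun i hi => ?_⟩
        have his : i ∈ s := Finset.mem_of_mem_erase (hTsub k₀ (hU0 hi))
        rw [hv i his]
        exact (hUv i hi).symm
    · have hv := hB k k₀ h0
      have hTk := hTeq k k₀ hv
      refine ⟨by rw [hTk]; exact hU0, fun i hi => ?_⟩
      exact hv i (Finset.mem_of_mem_erase (hTsub k₀ (hU0 hi)))
  -- Step J
  obtain ⟨p, q, hpq, hUpq⟩ := Finset.card_eq_two.mp hUc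
  have hpU : p ∈ U := by rw [hUpq]; simp
  have hqU : q ∈ U := by rw [hUpq]; simp
  have hzex : ∀ k, ∃ a, T k \ U = {a} := by
    intro k
    apply Finset.card_eq_one.mp
    rw [Finset.card_sdiff_of_subset (hI k).1, hC, hUc]
  choose z hz using hzex
  have hzmem : ∀ k, z k ∈ T k ∧ z k ∉ U := by
    intro k
    have : z k ∈ T k \ U := by rw [hz k]; exact Finset.mem_singleton_self _
    exact Finset.mem_sdiff.mp this
  have hTk : ∀ k i, i ∈ T k → i ∈ U ∨ i = z k := by
    intro k i hi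
    by_cases hiU : i ∈ U
    · exact Or.inl hiU
    · right
      have : i ∈ T k \ U := Finset.mem_sdiff.mpr ⟨hi, hiU⟩
      rw [hz k] at this
      exact Finset.mem_singleton.mp this
  have hp0 := (hTmem k₀ p).mp (hU0 hpU)
  have hq0 := (hTmem k₀ q).mp (hU0 hqU)
  refine ⟨p, q, v k₀ p, v k₀ q, z, fun k => - v k (z k), hp0.1.2, hq0.1.2, hp0.1.1, hq0.1.1,
    hpq, hTpm k₀ p (hU0 hpU), hTpm k₀ q (hU0 hqU), ?_, ?_, ?_⟩
  · intro k
    obtain ⟨h1, h2⟩ := hzmem k
    have h3 := (hTmem k (z k)).mp h1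
    refine ⟨h3.1.2, h3.1.1, fun h => h2 (h ▸ hpU), fun h => h2 (h ▸ hqU), ?_⟩
    show -v k (z k) = 1 ∨ -v k (z k) = -1
    rcases hTpm k (z k) h1 with h | h <;> rw [h] <;> norm_num
  · intro k i hi
    show v k i = (if i = o then 1 else 0) + (if i = p then v k₀ p else 0) +
        (if i = q then v k₀ q else 0) - (if i = z k then -v k (z k) else 0)
    obtain ⟨h1, h2⟩ := hzmem k
    have h3 := (hTmem k (z k)).mp h1
    by_cases hio : i = o
    · subst hio
      rw [hvo, if_pos rfl, if_neg (Ne.symm hp0.1.1), if_neg (Ne.symm hq0.1.1),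
        if_neg (Ne.symm h3.1.1)]
      ring
    by_cases hip : i = p
    · subst hip
      rw [if_neg hio, if_pos rfl, if_neg hpq, if_neg (fun h : i = z k => h2 (h ▸ hpU)),
        (hI k).2 i hpU]
      ring
    by_cases hiq : i = q
    · subst hiq
      rw [if_neg hio, if_neg hip, if_pos rfl, if_neg (fun h : i = z k => h2 (h ▸ hqU)),
        (hI k).2 i hqU]
      ring
    by_cases hiz : i = z k
    · subst hiz
      rw [if_neg hio, if_neg hip, if_neg hiq, if_pos rfl]
      ring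
    · rw [if_neg hio, if_neg hip, if_neg hiq, if_neg hiz]
      have : v k i = 0 := by
        by_contra hne
        have hiT : i ∈ T k := (hTmem k i).mpr ⟨⟨hio, hi⟩, hne⟩
        rcases hTk k i hiT with h | h
        · rw [hUpq] at h
          simp only [Finset.mem_insert, Finset.mem_singleton] at h
          rcases h with h | h
          · exact hip h
          · exact hiq h
        · exact hiz h
      rw [this]; ring
  · intro k l
    constructor
    · intro hzz
      rcases hG k l with h | h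
      · exfalso
        have h1 := (hD k l h).1
        have h2 : T k = T l := by
          ext i
          constructor
          · intro hi
            rcases hTk k i hi with h' | h'
            · exact (hI l).1 h'
            · rw [h', hzz]; exact (hzmem l).1
          · intro hi
            rcases hTk l i hi with h' | h'
            · exact (hI k).1 h'
            · rw [h', ← hzz]; exact (hzmem k).1
        rw [h2, Finset.inter_self, hC] at h1
        omega
      · exact hB k l h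
    · intro hv
      have h1 := hTeq k l hv
      have h2 : ({z k} : Finset ι) = {z l} := by rw [← hz k, ← hz l, h1]
      exact Finset.singleton_injective h2

end Gram

theorem dioph_aux1 (x y : ℤ) (hx : 15 ≤ x) (hy : 17 ≤ y)
    (h : (x * y + x - y) * (1 - x + y) = 9 * x * y) : False := by
  have h1 : 0 < x * y + x - y := by nlinarith
  have h2 : 0 < 1 - x + y := by
    by_contra hc
    rw [not_lt] at hc
    nlinarith [mul_nonneg_of_nonpos_of_nonpos (sub_nonpos.mpr hc) (le_refl (0:ℤ))]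
  obtain ⟨t, ht⟩ : ∃ t : ℤ, y = x + t := ⟨y - x, by ring⟩
  subst ht
  have ht0 : 0 ≤ t := by linarith
  have key : (x * x + x * t) * (t - 8) = t * (1 + t) := by nlinarith
  rcases le_or_gt t 7 with h7 | h7
  · nlinarith [mul_nonneg ht0 ht0, mul_pos (show (0:ℤ) < x by linarith) (show (0:ℤ) < x by linarith)]
  · rcases eq_or_lt_of_le (show (8:ℤ) ≤ t by omega) with h8 | h8
    · subst h8; nlinarith
    · have h9 : 9 ≤ t := by omega
      nlinarith [mul_nonneg (show (0:ℤ) ≤ t - 9 by linarith) (show (0:ℤ) ≤ t by linarith),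
        mul_nonneg (show (0:ℤ) ≤ x - 15 by linarith) (show (0:ℤ) ≤ t - 8 by linarith),
        mul_nonneg (mul_nonneg (show (0:ℤ) ≤ x by linarith) (show (0:ℤ) ≤ t by linarith)) (show (0:ℤ) ≤ t - 9 by linarith),
        mul_pos (show (0:ℤ) < x by linarith) (show (0:ℤ) < x by linarith)]

theorem dioph (X Y : ℤ) (hX : X = 1 ∨ 17 ≤ X ∨ X ≤ -15) (hY : Y = 1 ∨ 17 ≤ Y ∨ Y ≤ -15)
    (h : (X * Y + X + Y) * (1 + X + Y) = 9 * X * Y) : X = 1 ∧ Y = 1 := by
  rcases hX with hX | hX | hX <;> rcases hY with hY | hY | hY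
  · exact ⟨hX, hY⟩
  · subst hX; exfalso; nlinarith
  · subst hX; exfalso; nlinarith
  · subst hY; exfalso; nlinarith
  · exfalso; nlinarith [mul_pos (show (0:ℤ) < X by linarith) (show (0:ℤ) < Y by linarith)]
  · exfalso
    apply dioph_aux1 (-Y) X (by linarith) hX
    linear_combination (-1 : ℤ) * h
  · subst hY; exfalso; nlinarith
  · exfalso
    apply dioph_aux1 (-X) Y (by linarith) hY
    linear_combination (-1 : ℤ) * h
  · exfalso
    nlinarith [mul_pos (show (0:ℤ) < -X by linarith) (show (0:ℤ) < -Y by linarith),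
      mul_nonneg (show (0:ℤ) ≤ -X - 15 by linarith) (show (0:ℤ) ≤ -Y - 15 by linarith)]

end Cfsg.Agent.H59.HC
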