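import Mathlib

/-!
# helper59: the dual group of a finite abelian group (complex characters)

Orthogonality relations and Fourier inversion for `A →* ℂˣ`, `A` a finite commutative group.
-/

set_option autoImplicit false
set_option linter.style.haveILetI false

namespace Cfsg.Agent.H59.HC

open scoped ComplexConjugate

section Dual

variable {A : Type*} [CommGroup A] [Finite A]

theorem card_dual : Nat.card (A →* ℂˣ) = Nat.card A := by
  haveI : NeZero (Monoid.exponent A) := ⟨Monoid.exponent_ne_zero_of_finite⟩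
  exact CommGroup.card_monoidHom_of_hasEnoughRootsOfUnity A ℂ

theorem finite_dual : Finite (A →* ℂˣ) := by
  apply Nat.finite_of_card_ne_zero
  rw [card_dual]
  exact Nat.card_pos.ne'

theorem dual_norm (l : A →* ℂˣ) (x : A) : ‖((l x : ℂˣ) : ℂ)‖ = 1 := by
  have h1 : ((l x : ℂˣ) : ℂ) ^ (Nat.card A) = 1 := by
    rw [← Units.val_pow_eq_pow_val, ← map_pow, pow_card_eq_one', map_one, Units.val_one]
  exact Complex.norm_eq_one_of_pow_eq_one h1 Nat.card_pos.ne'

theorem dual_conj (l : A →* ℂˣ) (x : A) : conj ((l x : ℂˣ) : ℂ) = ((l x⁻¹ : ℂˣ) : ℂ) := by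
  rw [← Complex.inv_eq_conj (dual_norm l x), map_inv, Units.val_inv_eq_inv_val]

/-- `∑_λ λ(x) = 0` for `x ≠ 1` -/
theorem sum_dual_apply [Fintype (A →* ℂˣ)] (x : A) (hx : x ≠ 1) :
    ∑ l : A →* ℂˣ, ((l x : ℂˣ) : ℂ) = 0 := by
  haveI : NeZero (Monoid.exponent A) := ⟨Monoid.exponent_ne_zero_of_finite⟩
  obtain ⟨φ, hφ⟩ := CommGroup.exists_apply_ne_one_of_hasEnoughRootsOfUnity A ℂ hx
  have h1 : ∑ l : A →* ℂˣ, ((l x : ℂˣ) : ℂ) =
      ((φ x : ℂˣ) : ℂ) * ∑ l : A →* ℂˣ, ((l x : ℂˣ) : ℂ) := by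
    rw [Finset.mul_sum, ← Equiv.sum_comp (Equiv.mulLeft φ)]
    apply Finset.sum_congr rfl
    intro l _
    simp [MonoidHom.mul_apply]
  have h2 : ((φ x : ℂˣ) : ℂ) ≠ 1 := fun h => hφ (Units.ext h)
  have h3 : (((φ x : ℂˣ) : ℂ) - 1) * ∑ l : A →* ℂˣ, ((l x : ℂˣ) : ℂ) = 0 := by
    linear_combination -h1
  rcases mul_eq_zero.mp h3 with h | h
  · exact absurd (sub_eq_zero.mp h) h2
  · exact h

theorem sum_dual_apply' [Fintype (A →* ℂˣ)] [DecidableEq A] (x : A) :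
    ∑ l : A →* ℂˣ, ((l x : ℂˣ) : ℂ) = if x = 1 then (Nat.card A : ℂ) else 0 := by
  split_ifs with h
  · subst h
    simp only [map_one, Units.val_one, Finset.sum_const, Finset.card_univ, nsmul_eq_mul, mul_one]
    rw [← card_dual, Nat.card_eq_fintype_card]
  · exact sum_dual_apply x h

omit [Finite A] in
/-- `∑_x λ(x) = 0` for `λ ≠ 1` -/
theorem sum_apply_dual [Fintype A] (l : A →* ℂˣ) (hl : l ≠ 1) :
    ∑ x : A, ((l x : ℂˣ) : ℂ) = 0 := by
  have := sum_hom_units_eq_zero ((Units.coeHom ℂ).comp l) (by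
    intro h
    apply hl
    ext x
    have := DFunLike.congr_fun h x
    simpa using this)
  simpa using this

theorem sum_conj_mul [Fintype A] [DecidableEq (A →* ℂˣ)] (l m : A →* ℂˣ) :
    ∑ x : A, conj ((l x : ℂˣ) : ℂ) * ((m x : ℂˣ) : ℂ) =
      if l = m then (Nat.card A : ℂ) else 0 := by
  have h1 : ∀ x : A, conj ((l x : ℂˣ) : ℂ) * ((m x : ℂˣ) : ℂ) = (((l⁻¹ * m) x : ℂˣ) : ℂ) := by
    intro x
    rw [dual_conj, MonoidHom.mul_apply, MonoidHom.inv_apply, map_inv, Units.val_mul]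
  rw [Finset.sum_congr rfl (fun x _ => h1 x)]
  split_ifs with h
  · subst h
    have h0 : ∀ x : A, (((l⁻¹ * l) x : ℂˣ) : ℂ) = 1 := by
      intro x
      rw [MonoidHom.mul_apply, MonoidHom.inv_apply, inv_mul_cancel, Units.val_one]
    rw [Finset.sum_congr rfl (fun x _ => h0 x)]
    simp only [Finset.sum_const, Finset.card_univ, nsmul_eq_mul, mul_one]
    rw [Nat.card_eq_fintype_card]
  · apply sum_apply_dual
    intro h'
    apply h
    ext x
    have h2 := DFunLike.congr_fun h' x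
    rw [MonoidHom.mul_apply, MonoidHom.inv_apply, MonoidHom.one_apply, inv_mul_eq_one] at h2
    rw [h2]

theorem sum_conj_dual [Fintype A] [DecidableEq (A →* ℂˣ)] (l : A →* ℂˣ) :
    ∑ x : A, conj ((l x : ℂˣ) : ℂ) = if l = 1 then (Nat.card A : ℂ) else 0 := by
  have := sum_conj_mul l 1
  simpa using this

theorem sum_apply_dual' [Fintype A] [DecidableEq (A →* ℂˣ)] (m : A →* ℂˣ) :
    ∑ x : A, ((m x : ℂˣ) : ℂ) = if m = 1 then (Nat.card A : ℂ) else 0 := by
  have := sum_conj_mul 1 m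
  simp only [MonoidHom.one_apply, Units.val_one, map_one, one_mul] at this
  rw [this]
  by_cases h : m = 1
  · rw [if_pos h, if_pos h.symm]
  · rw [if_neg h, if_neg (fun h' => h h'.symm)]


theorem sum_one_sub [Fintype A] [DecidableEq (A →* ℂˣ)] (l m : A →* ℂˣ) :
    ∑ y : A, (1 - conj ((l y : ℂˣ) : ℂ)) * (1 - ((m y : ℂˣ) : ℂ)) =
      (Nat.card A : ℂ) * (1 - (if l = 1 then 1 else 0) - (if m = 1 then 1 else 0) +
        (if l = m then 1 else 0)) := by
  have h1 : ∀ y : A, (1 - conj ((l y : ℂˣ) : ℂ)) * (1 - ((m y : ℂˣ) : ℂ)) =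
      1 - conj ((l y : ℂˣ) : ℂ) - ((m y : ℂˣ) : ℂ) +
        conj ((l y : ℂˣ) : ℂ) * ((m y : ℂˣ) : ℂ) := fun y => by ring
  rw [Finset.sum_congr rfl (fun y _ => h1 y), Finset.sum_add_distrib, Finset.sum_sub_distrib,
    Finset.sum_sub_distrib, sum_conj_dual, sum_apply_dual', sum_conj_mul]
  simp only [Finset.sum_const, Finset.card_univ, nsmul_eq_mul, mul_one]
  rw [← Nat.card_eq_fintype_card]
  split_ifs <;> ring

/-- Fourier inversion -/
theorem fourier [Fintype A] [Fintype (A →* ℂˣ)] (f : A → ℂ) (x : A) :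
    ∑ l : A →* ℂˣ, ((Nat.card A : ℂ)⁻¹ * ∑ y : A, f y * conj ((l y : ℂˣ) : ℂ)) *
      ((l x : ℂˣ) : ℂ) = f x := by
  classical
  have hA : (Nat.card A : ℂ) ≠ 0 := by exact_mod_cast Nat.card_pos.ne'
  have h1 : ∀ l : A →* ℂˣ, ((Nat.card A : ℂ)⁻¹ * ∑ y : A, f y * conj ((l y : ℂˣ) : ℂ)) *
      ((l x : ℂˣ) : ℂ) = ∑ y : A, (Nat.card A : ℂ)⁻¹ * f y * ((l (y⁻¹ * x) : ℂˣ) : ℂ) := by
    intro l
    rw [Finset.mul_sum, Finset.sum_mul]
    apply Finset.sum_congr rfl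
    intro y _
    rw [dual_conj, map_mul, Units.val_mul]
    ring
  rw [Finset.sum_congr rfl (fun l _ => h1 l), Finset.sum_comm]
  have h2 : ∀ y : A, ∑ l : A →* ℂˣ, (Nat.card A : ℂ)⁻¹ * f y * ((l (y⁻¹ * x) : ℂˣ) : ℂ) =
      if y = x then f y else 0 := by
    intro y
    rw [← Finset.mul_sum, sum_dual_apply']
    by_cases h : y = x
    · subst h
      rw [if_pos (inv_mul_cancel y), if_pos rfl]
      field_simp
    · rw [if_neg h, if_neg (fun h' => h (inv_mul_eq_one.mp h')), mul_zero]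
  rw [Finset.sum_congr rfl (fun y _ => h2 y), Finset.sum_ite_eq' Finset.univ x f]
  simp

/-- a partial orthogonality: the characters trivial on two involutions `a, b`, summed at an
element `x` with `x² ≠ 1` -/
theorem sum_dual_perp [Fintype (A →* ℂˣ)] (a b x : A) (ha : a * a = 1) (hb : b * b = 1)
    (hx : x * x ≠ 1) [DecidablePred (fun l : A →* ℂˣ => l a = 1 ∧ l b = 1)] :
    ∑ l : A →* ℂˣ, (if l a = 1 ∧ l b = 1 then ((l x : ℂˣ) : ℂ) else 0) = 0 := by
  haveI : NeZero (Monoid.exponent A) := ⟨Monoid.exponent_ne_zero_of_finite⟩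
  obtain ⟨φ, hφ⟩ := CommGroup.exists_apply_ne_one_of_hasEnoughRootsOfUnity A ℂ hx
  have hφa : (φ * φ) a = 1 := by
    rw [MonoidHom.mul_apply, ← map_mul, ha, map_one]
  have hφb : (φ * φ) b = 1 := by
    rw [MonoidHom.mul_apply, ← map_mul, hb, map_one]
  have hφx : (((φ * φ) x : ℂˣ) : ℂ) ≠ 1 := by
    intro h
    apply hφ
    rw [map_mul]
    exact Units.ext h
  have h1 : ∑ l : A →* ℂˣ, (if l a = 1 ∧ l b = 1 then ((l x : ℂˣ) : ℂ) else 0) =
      (((φ * φ) x : ℂˣ) : ℂ) *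
        ∑ l : A →* ℂˣ, (if l a = 1 ∧ l b = 1 then ((l x : ℂˣ) : ℂ) else 0) := by
    rw [Finset.mul_sum, ← Equiv.sum_comp (Equiv.mulLeft (φ * φ))]
    apply Finset.sum_congr rfl
    intro l _
    have e1 : (Equiv.mulLeft (φ * φ)) l a = l a := by
      show ((φ * φ) * l) a = l a
      rw [MonoidHom.mul_apply, hφa, one_mul]
    have e2 : (Equiv.mulLeft (φ * φ)) l b = l b := by
      show ((φ * φ) * l) b = l b
      rw [MonoidHom.mul_apply, hφb, one_mul]
    have e3 : (Equiv.mulLeft (φ * φ)) l x = (φ * φ) x * l x := rfl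
    by_cases hc : l a = 1 ∧ l b = 1
    · rw [if_pos hc, if_pos (by rw [e1, e2]; exact hc), e3, Units.val_mul]
    · rw [if_neg hc, if_neg (by rw [e1, e2]; exact hc), mul_zero]
  have h3 : ((((φ * φ) x : ℂˣ) : ℂ) - 1) *
      ∑ l : A →* ℂˣ, (if l a = 1 ∧ l b = 1 then ((l x : ℂˣ) : ℂ) else 0) = 0 := by
    linear_combination -h1
  rcases mul_eq_zero.mp h3 with h | h
  · exact absurd (sub_eq_zero.mp h) hφx
  · exact h

end Dual

end Cfsg.Agent.H59.HC
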