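import Mathlib
import Cfsg.Agent.H84.SectionOrth
import Cfsg.Agent.H40.PCore
import Cfsg.Agent.H11.Cores
import Cfsg.Agent.H21.Homocyclic4

/-!
# helper59: group theory for Brauer's theorem on Sylow 2-subgroups of type `(2^m, 2^m)`

* `no_inv_prod`: with abelian Sylow 2-subgroups, a product of two involutions never has a
  `2`-part of order four.
* `exists_index_pPrimeCore`: Burnside's transfer theorem in a centralizer.
* `mem_cosets_of_relIndex_three`: the three cosets of a normal subgroup of index three.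
* `homocyclic_setup`: the data attached to a homocyclic Sylow 2-subgroup with `[N : C] = 3`.
-/

set_option autoImplicit false
set_option linter.style.haveILetI false
set_option linter.unusedSectionVars false

namespace Cfsg.Agent.H59.HC

open Cfsg

theorem mem_cosets_of_relIndex_three {G : Type*} [Group G] (C N : Subgroup G)
    [hn : (C.subgroupOf N).Normal] (h3 : C.relIndex N = 3) (n : G) (hnN : n ∈ N) (hnC : n ∉ C)
    (h : G) (hh : h ∈ N) : h ∈ C ∨ n⁻¹ * h ∈ C ∨ (n * n)⁻¹ * h ∈ C := by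
  haveI : Fact (Nat.Prime 3) := ⟨Nat.prime_three⟩
  have hcard : Nat.card (N ⧸ C.subgroupOf N) = 3 := by
    rw [← Subgroup.index_eq_card]; exact h3
  obtain ⟨nb, hnb⟩ : ∃ nb : N ⧸ C.subgroupOf N, nb = QuotientGroup.mk (⟨n, hnN⟩ : N) := ⟨_, rfl⟩
  obtain ⟨hb, hhb⟩ : ∃ hb : N ⧸ C.subgroupOf N, hb = QuotientGroup.mk (⟨h, hh⟩ : N) := ⟨_, rfl⟩
  have hn1 : nb ≠ 1 := by
    intro h'
    rw [hnb, QuotientGroup.eq_one_iff, Subgroup.mem_subgroupOf] at h'
    exact hnC h'
  have htop := zpowers_eq_top_of_prime_card hcard hn1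
  have hmem : hb ∈ Subgroup.zpowers nb := by rw [htop]; trivial
  obtain ⟨k, hk⟩ := Subgroup.mem_zpowers_iff.mp hmem
  have h3' : nb ^ (3 : ℤ) = 1 := by
    have := pow_card_eq_one' (G := N ⧸ C.subgroupOf N) (x := nb)
    rw [hcard] at this
    exact_mod_cast this
  have hk' : nb ^ (k % 3) = hb := by
    rw [← hk]
    conv_rhs => rw [← Int.emod_add_mul_ediv k 3]
    rw [zpow_add, zpow_mul, h3', one_zpow, mul_one]
  have hr : k % 3 = 0 ∨ k % 3 = 1 ∨ k % 3 = 2 := by omega
  rcases hr with hr | hr | hr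
  · left
    rw [hr, zpow_zero, hhb] at hk'
    have := (QuotientGroup.eq_one_iff _).mp hk'.symm
    rwa [Subgroup.mem_subgroupOf] at this
  · right; left
    rw [hr, zpow_one, hnb, hhb] at hk'
    have := QuotientGroup.eq.mp hk'
    rw [Subgroup.mem_subgroupOf] at this
    exact this
  · right; right
    rw [hr] at hk'
    have h2 : nb ^ (2 : ℤ) = QuotientGroup.mk ((⟨n, hnN⟩ : N) * ⟨n, hnN⟩) := by
      rw [QuotientGroup.mk_mul, ← hnb]; exact zpow_two _
    rw [h2, hhb] at hk'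
    have := QuotientGroup.eq.mp hk'
    rw [Subgroup.mem_subgroupOf] at this
    exact this

section Grp

variable {G : Type*} [Group G] [Finite G]

theorem isPGroup_zpowers_two (x : G) (k : ℕ) (hx : x ^ 2 ^ k = 1) :
    IsPGroup 2 (Subgroup.zpowers x) := by
  have h1 : orderOf x ∣ 2 ^ k := orderOf_dvd_of_pow_eq_one hx
  obtain ⟨j, -, hj⟩ := (Nat.dvd_prime_pow Nat.prime_two).mp h1
  exact IsPGroup.of_card (n := j) (by rw [Nat.card_zpowers, hj])

/-- with abelian Sylow `2`-subgroups, a product of two involutions never has a `2`-part of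
order four -/
theorem no_inv_prod (P : Sylow 2 G)
    (hab : ∀ x ∈ (P : Subgroup G), ∀ y ∈ (P : Subgroup G), x * y = y * x)
    (s t w c : G) (hs : s * s = 1) (ht : t * t = 1) (hst : s * t = w * c) (hwc : w * c = c * w)
    (hw : orderOf w = 4) (hc : ¬ 2 ∣ orderOf c) : False := by
  haveI : Fact (Nat.Prime 2) := ⟨Nat.prime_two⟩
  have hsinv : s⁻¹ = s := inv_eq_of_mul_eq_one_left hs
  have htinv : t⁻¹ = t := inv_eq_of_mul_eq_one_left ht
  have ho : ∀ g x : G, orderOf (g * x * g⁻¹) = orderOf x := fun g x =>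
    orderOf_injective (MulAut.conj g).toMonoidHom (MulAut.conj g).injective x
  have h1 : IsPPart 2 (s * (w * c) * s⁻¹) (s * w * s⁻¹) := by
    refine ⟨s * c * s⁻¹, by group, ?_, ⟨2, by rw [ho, hw]; norm_num⟩, by rw [ho]; exact hc⟩
    show (s * w * s⁻¹) * (s * c * s⁻¹) = (s * c * s⁻¹) * (s * w * s⁻¹)
    calc (s * w * s⁻¹) * (s * c * s⁻¹) = s * (w * c) * s⁻¹ := by group
      _ = s * (c * w) * s⁻¹ := by rw [hwc]
      _ = (s * c * s⁻¹) * (s * w * s⁻¹) := by group
  have h2 : s * (w * c) * s⁻¹ = w⁻¹ * c⁻¹ := by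
    rw [← hst, hsinv]
    calc s * (s * t) * s = (s * s) * t * s := by group
      _ = t * s := by rw [hs, one_mul]
      _ = (s * t)⁻¹ := by rw [mul_inv_rev, hsinv, htinv]
      _ = (c * w)⁻¹ := by rw [hst, hwc]
      _ = w⁻¹ * c⁻¹ := by rw [mul_inv_rev]
  have h3 : IsPPart 2 (s * (w * c) * s⁻¹) w⁻¹ := by
    rw [h2]
    refine ⟨c⁻¹, rfl, ?_, ⟨2, by rw [orderOf_inv, hw]; norm_num⟩, by rw [orderOf_inv]; exact hc⟩
    exact Commute.inv_inv (show Commute w c from hwc)
  have h4 : s * w * s⁻¹ = w⁻¹ := Cfsg.Agent.H84.isPPart_unique Nat.prime_two h1 h3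
  have hps : IsPGroup 2 (Subgroup.zpowers s) :=
    isPGroup_zpowers_two s 1 (by rw [pow_one, pow_two]; exact hs)
  have hpw : IsPGroup 2 (Subgroup.zpowers w) :=
    isPGroup_zpowers_two w 2 (by
      have := pow_orderOf_eq_one w
      rw [hw] at this
      exact this)
  have hnorm : Subgroup.zpowers s ≤ Subgroup.normalizer (Subgroup.zpowers w : Set G) := by
    rw [Subgroup.zpowers_le]
    have key : ∀ y ∈ Subgroup.zpowers w, s * y * s⁻¹ ∈ Subgroup.zpowers w := by
      intro y hy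
      obtain ⟨j, rfl⟩ := Subgroup.mem_zpowers_iff.mp hy
      have : s * w ^ j * s⁻¹ = (w⁻¹) ^ j := by
        rw [← h4, conj_zpow]
      rw [this]
      exact Subgroup.zpow_mem _ (Subgroup.inv_mem _ (Subgroup.mem_zpowers w)) j
    rw [Subgroup.mem_normalizer_iff]
    intro y
    constructor
    · exact key y
    · intro hy
      have := key _ hy
      have e : s * (s * y * s⁻¹) * s⁻¹ = y := by
        rw [hsinv]
        calc s * (s * y * s) * s = (s * s) * y * (s * s) := by group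
          _ = y := by rw [hs, one_mul, mul_one]
      rw [e] at this
      exact this
  have hp := IsPGroup.to_sup_of_normal_right' hps hpw hnorm
  obtain ⟨Q, hQ⟩ := hp.exists_le_sylow
  obtain ⟨g, hg⟩ := MulAction.exists_smul_eq G Q P
  have hmem : ∀ x ∈ (Q : Subgroup G), g * x * g⁻¹ ∈ (P : Subgroup G) := by
    intro x hx
    rw [← hg, Sylow.smul_def, Sylow.pointwise_smul_def]
    have := Subgroup.smul_mem_pointwise_smul x (MulAut.conj g) (Q : Subgroup G) hx
    simpa [MulAut.smul_def] using this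
  have hsQ : s ∈ (Q : Subgroup G) := hQ (Subgroup.mem_sup_left (Subgroup.mem_zpowers s))
  have hwQ : w ∈ (Q : Subgroup G) := hQ (Subgroup.mem_sup_right (Subgroup.mem_zpowers w))
  have hcomm := hab _ (hmem s hsQ) _ (hmem w hwQ)
  have hsw : s * w = w * s := by
    have : g * (s * w) * g⁻¹ = g * (w * s) * g⁻¹ := by
      calc g * (s * w) * g⁻¹ = (g * s * g⁻¹) * (g * w * g⁻¹) := by group
        _ = (g * w * g⁻¹) * (g * s * g⁻¹) := hcomm
        _ = g * (w * s) * g⁻¹ := by group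
    exact mul_left_cancel (mul_right_cancel this)
  have hww : w * w = 1 := by
    have : s * w * s⁻¹ = w := by rw [hsw]; group
    rw [this] at h4
    calc w * w = w * w⁻¹ := by rw [← h4]
      _ = 1 := mul_inv_cancel w
  have : orderOf w ∣ 2 := orderOf_dvd_of_pow_eq_one (by rw [pow_two]; exact hww)
  rw [hw] at this
  norm_num at this

/-- Burnside's transfer theorem inside a centralizer -/
theorem exists_index_pPrimeCore (P : Sylow 2 G) (z : G)
    (hPz : (P : Subgroup G) ≤ Subgroup.centralizer ({z} : Set G))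
    (hNC : Subgroup.centralizer ({z} : Set G) ⊓ Subgroup.normalizer ((P : Subgroup G) : Set G) ≤
      Subgroup.centralizer ((P : Subgroup G) : Set G)) :
    ∃ k : ℕ, (pPrimeCore 2 (Subgroup.centralizer ({z} : Set G))).index = 2 ^ k := by
  haveI : Fact (Nat.Prime 2) := ⟨Nat.prime_two⟩
  obtain ⟨C, hC⟩ : ∃ C : Subgroup G, C = Subgroup.centralizer ({z} : Set G) := ⟨_, rfl⟩
  rw [← hC] at hPz hNC ⊢
  obtain ⟨P', hP'⟩ : ∃ P' : Sylow 2 C, P' = P.subtype hPz := ⟨_, rfl⟩
  have hcoe : (P' : Subgroup C) = (P : Subgroup G).subgroupOf C := by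
    rw [hP', Sylow.coe_subtype]
  have hNC' : Subgroup.normalizer ((P' : Subgroup C) : Set C) ≤
      Subgroup.centralizer ((P' : Subgroup C) : Set C) := by
    intro h hh
    rw [Subgroup.mem_normalizer_iff] at hh
    have hN : (h : G) ∈ Subgroup.normalizer ((P : Subgroup G) : Set G) := by
      rw [Subgroup.mem_normalizer_iff]
      intro x
      constructor
      · intro hx
        have := (hh ⟨x, hPz hx⟩).mp (by rw [hcoe, Subgroup.mem_subgroupOf]; exact hx)
        rw [hcoe, Subgroup.mem_subgroupOf] at this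
        exact this
      · intro hx
        have hxC : x ∈ C := by
          have h1 : (h : G)⁻¹ * ((h : G) * x * (h : G)⁻¹) * (h : G) ∈ C :=
            C.mul_mem (C.mul_mem (C.inv_mem h.2) (hPz hx)) h.2
          have h2 : (h : G)⁻¹ * ((h : G) * x * (h : G)⁻¹) * (h : G) = x := by group
          rw [h2] at h1; exact h1
        have := (hh ⟨x, hxC⟩).mpr (by rw [hcoe, Subgroup.mem_subgroupOf]; exact hx)
        rw [hcoe, Subgroup.mem_subgroupOf] at this
        exact this
    have hcen := hNC ⟨h.2, hN⟩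
    rw [Subgroup.mem_centralizer_iff]
    intro y hy
    rw [SetLike.mem_coe, hcoe, Subgroup.mem_subgroupOf] at hy
    have := Subgroup.mem_centralizer_iff.mp hcen (y : G) hy
    exact Subtype.ext this
  have hcomp := MonoidHom.ker_transferSylow_isComplement' P' hNC'
  obtain ⟨K, hK⟩ : ∃ K : Subgroup C, K = (MonoidHom.transferSylow P' hNC').ker := ⟨_, rfl⟩
  rw [← hK] at hcomp
  haveI hKn : K.Normal := by rw [hK]; infer_instance
  have h1 : (P' : Subgroup C).index = Nat.card K := hcomp.index_eq_card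
  have h2 : K.index = Nat.card (P' : Subgroup C) := hcomp.symm.index_eq_card
  have h3 : (Nat.card K).Coprime 2 := by
    rw [← h1, Nat.coprime_comm, Nat.Prime.coprime_iff_not_dvd Nat.prime_two]
    exact P'.not_dvd_index
  have h4 := Cfsg.Agent.H40.le_pPrimeCore K hKn h3
  have h5 := Subgroup.index_dvd_of_le h4
  rw [h2, Sylow.card_eq_multiplicity] at h5
  obtain ⟨j, -, hj⟩ := (Nat.dvd_prime_pow Nat.prime_two).mp h5
  exact ⟨j, hj⟩

/-- the data of a homocyclic Sylow `2`-subgroup with `[N : C] = 3` -/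
theorem homocyclic_setup (P : Sylow 2 G) (m : ℕ) (hm : 1 ≤ m)
    (e : (P : Subgroup G) ≃* Multiplicative (ZMod (2 ^ m) × ZMod (2 ^ m)))
    (h3 : (Subgroup.centralizer ((P : Subgroup G) : Set G)).relIndex
      (Subgroup.normalizer ((P : Subgroup G) : Set G)) = 3) :
    ∃ (ψ : Multiplicative (ZMod (2 ^ m) × ZMod (2 ^ m)) →* G)
      (τ : Multiplicative (ZMod (2 ^ m) × ZMod (2 ^ m)) →*
        Multiplicative (ZMod (2 ^ m) × ZMod (2 ^ m))) (n : G),
      Function.Injective ψ ∧ ψ.range = (P : Subgroup G) ∧ (∀ x, ψ (τ x) = n * ψ x * n⁻¹) ∧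
      (∀ x, τ (τ (τ x)) = x) ∧ (∀ x, τ x = x → x = 1) ∧
      (∀ x x', IsConj (ψ x) (ψ x') → x' = x ∨ x' = τ x ∨ x' = τ (τ x)) ∧
      (∀ x, x ≠ 1 → ∃ k : ℕ,
        (pPrimeCore 2 (Subgroup.centralizer ({ψ x} : Set G))).index = 2 ^ k) := by
  haveI : Fact (Nat.Prime 2) := ⟨Nat.prime_two⟩
  obtain ⟨hab, hexp, -⟩ := Cfsg.Agent.H21.homocyclic_sylow_data (P : Subgroup G) m hm e
  have hne : ¬ Subgroup.normalizer ((P : Subgroup G) : Set G) ≤
      Subgroup.centralizer ((P : Subgroup G) : Set G) := by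
    rw [← Subgroup.relIndex_eq_one, h3]; norm_num
  obtain ⟨n, hnN, hnC⟩ := SetLike.not_le_iff_exists.1 hne
  obtain ⟨ψ, hψd⟩ : ∃ ψ : Multiplicative (ZMod (2 ^ m) × ZMod (2 ^ m)) →* G,
      ψ = (P : Subgroup G).subtype.comp e.symm.toMonoidHom := ⟨_, rfl⟩
  have hψ : Function.Injective ψ := by
    rw [hψd]
    exact (Subgroup.subtype_injective _).comp e.symm.injective
  have hS : ψ.range = (P : Subgroup G) := by
    rw [hψd, MonoidHom.range_comp, MonoidHom.range_eq_top.mpr e.symm.surjective,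
      ← MonoidHom.range_eq_map, Subgroup.range_subtype]
  have hψP : ∀ x, ψ x ∈ (P : Subgroup G) := fun x => by rw [← hS]; exact ⟨x, rfl⟩
  have hψval : ∀ x, ψ x = ((e.symm x : (P : Subgroup G)) : G) := fun x => by rw [hψd]; rfl
  let conjP : (P : Subgroup G) →* (P : Subgroup G) :=
    { toFun := fun x => ⟨n * x * n⁻¹, (Subgroup.mem_normalizer_iff.mp hnN x).mp x.2⟩
      map_one' := by ext; simp
      map_mul' := by intro x y; ext; simp }
  obtain ⟨τ, hτd⟩ : ∃ τ : Multiplicative (ZMod (2 ^ m) × ZMod (2 ^ m)) →*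
      Multiplicative (ZMod (2 ^ m) × ZMod (2 ^ m)),
      τ = e.toMonoidHom.comp (conjP.comp e.symm.toMonoidHom) := ⟨_, rfl⟩
  have hτ : ∀ x, ψ (τ x) = n * ψ x * n⁻¹ := by
    intro x
    rw [hψval, hψval, hτd]
    show ((e.symm (e (conjP (e.symm x))) : (P : Subgroup G)) : G) = _
    rw [MulEquiv.symm_apply_apply]
    rfl
  have hn3 : n ^ 3 ∈ Subgroup.centralizer ((P : Subgroup G) : Set G) := by
    have := Cfsg.Agent.H21.pow_relIndex_mem_centralizer (P : Subgroup G) n hnN
    rw [h3] at this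
    exact this
  have hfixG : ∀ z ∈ (P : Subgroup G), n * z * n⁻¹ = z → z = 1 := by
    intro z hz hnz
    by_contra hz1
    apply hnC
    apply Cfsg.Agent.H21.homocyclic_centralizer_inf_normalizer P m hm e h3 n hnN z hz hz1
    calc n * z = (n * z * n⁻¹) * n := by group
      _ = z * n := by rw [hnz]
  refine ⟨ψ, τ, n, hψ, hS, hτ, ?_, ?_, ?_, ?_⟩
  · intro x
    apply hψ
    rw [hτ, hτ, hτ]
    have hc := Subgroup.mem_centralizer_iff.mp hn3 (ψ x) (hψP x)
    have e3 : n ^ 3 = n * n * n := by rw [pow_succ, pow_two]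
    rw [e3] at hc
    calc n * (n * (n * ψ x * n⁻¹) * n⁻¹) * n⁻¹ = (n * n * n * ψ x) * (n * n * n)⁻¹ := by group
      _ = (ψ x * (n * n * n)) * (n * n * n)⁻¹ := by rw [hc]
      _ = ψ x := by group
  · intro x hx
    apply hψ
    rw [map_one]
    apply hfixG (ψ x) (hψP x)
    rw [← hτ, hx]
  · intro x x' hconj
    obtain ⟨g, hg⟩ := isConj_iff.mp hconj
    have hPc : (P : Subgroup G) ≤ Subgroup.centralizer ((P : Subgroup G) : Set G) := by
      intro y hy w hw
      exact hab w hw y hy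
    obtain ⟨h, hhN, hh⟩ := P.conj_eq_normalizer_conj_of_mem_centralizer (ψ x) g⁻¹
      (hPc (hψP x)) (by rw [inv_inv, hg]; exact hPc (hψP x'))
    rw [inv_inv, hg] at hh
    haveI := Cfsg.Agent.H21.centralizer_subgroupOf_normalizer_normal (P : Subgroup G)
    have hcent : ∀ c ∈ Subgroup.centralizer ((P : Subgroup G) : Set G), ∀ y,
        c * ψ y * c⁻¹ = ψ y := by
      intro c hc y
      have := Subgroup.mem_centralizer_iff.mp hc (ψ y) (hψP y)
      rw [← this]; group
    rcases mem_cosets_of_relIndex_three _ _ h3 n hnN hnC h⁻¹ (Subgroup.inv_mem _ hhN)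
      with hc | hc | hc
    · left
      apply hψ
      rw [hh]
      have := hcent _ hc x
      rw [inv_inv] at this
      exact this
    · right; left
      apply hψ
      rw [hh, hτ]
      have := hcent _ hc x
      calc h⁻¹ * ψ x * h = n * ((n⁻¹ * h⁻¹) * ψ x * (n⁻¹ * h⁻¹)⁻¹) * n⁻¹ := by group
        _ = n * ψ x * n⁻¹ := by rw [this]
    · right; right
      apply hψ
      rw [hh, hτ, hτ]
      have := hcent _ hc x
      calc h⁻¹ * ψ x * h = n * (n * (((n * n)⁻¹ * h⁻¹) * ψ x * ((n * n)⁻¹ * h⁻¹)⁻¹) * n⁻¹) * n⁻¹ := by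
            group
        _ = n * (n * ψ x * n⁻¹) * n⁻¹ := by rw [this]
  · intro x hx
    have hx1 : ψ x ≠ 1 := fun h => hx (hψ (by rw [h, map_one]))
    apply exists_index_pPrimeCore P (ψ x)
    · intro y hy
      rw [Subgroup.mem_centralizer_iff]
      intro w hw
      rw [Set.mem_singleton_iff] at hw
      rw [hw]
      exact hab _ (hψP x) y hy
    · rintro h ⟨hhz, hhN⟩
      apply Cfsg.Agent.H21.homocyclic_centralizer_inf_normalizer P m hm e h3 h hhN (ψ x) (hψP x) hx1
      have := Subgroup.mem_centralizer_iff.mp hhz (ψ x) (Set.mem_singleton _)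
      exact this.symm

end Grp

/-- an involution and an element of order four in `ℤ/2^m × ℤ/2^m`, `m ≥ 2` -/
theorem exists_inv_four (m : ℕ) (hm : 2 ≤ m) :
    ∃ a u : Multiplicative (ZMod (2 ^ m) × ZMod (2 ^ m)), a ≠ 1 ∧ a * a = 1 ∧ u * u ≠ 1 ∧
      (u * u) * (u * u) = 1 ∧ 16 ≤ Nat.card (Multiplicative (ZMod (2 ^ m) × ZMod (2 ^ m))) := by
  obtain ⟨c, hc⟩ : ∃ c : ZMod (2 ^ m), c = ((2 ^ (m - 2) : ℕ) : ZMod (2 ^ m)) := ⟨_, rfl⟩
  have hcc : c + c ≠ 0 := by
    rw [hc, ← Nat.cast_add]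
    intro h
    rw [ZMod.natCast_eq_zero_iff] at h
    have h1 : 2 ^ (m - 2) + 2 ^ (m - 2) = 2 ^ (m - 1) := by
      have : m - 1 = (m - 2) + 1 := by omega
      rw [this, pow_succ]; ring
    rw [h1] at h
    have h2 := Nat.le_of_dvd (by positivity) h
    have h3 : 2 ^ (m - 1) < 2 ^ m := Nat.pow_lt_pow_right (by norm_num) (by omega)
    omega
  have hc4 : (c + c) + (c + c) = 0 := by
    rw [hc, ← Nat.cast_add, ← Nat.cast_add]
    have h1 : 2 ^ (m - 2) + 2 ^ (m - 2) + (2 ^ (m - 2) + 2 ^ (m - 2)) = 2 ^ m := by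
      have : m = (m - 2) + 2 := by omega
      conv_rhs => rw [this, pow_add]
      ring
    rw [h1]
    exact ZMod.natCast_self _
  obtain ⟨u, hu⟩ : ∃ u : Multiplicative (ZMod (2 ^ m) × ZMod (2 ^ m)),
      u = Multiplicative.ofAdd (c, (0 : ZMod (2 ^ m))) := ⟨_, rfl⟩
  have huu : u * u = Multiplicative.ofAdd (c + c, (0 : ZMod (2 ^ m))) := by
    rw [hu, ← ofAdd_add]; simp
  have huu1 : u * u ≠ 1 := by
    rw [huu]
    intro h
    have := congrArg (fun z : Multiplicative (ZMod (2 ^ m) × ZMod (2 ^ m)) => (Multiplicative.toAdd z).1) h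
    simp only [toAdd_ofAdd, toAdd_one, Prod.fst_zero] at this
    exact hcc this
  have hu4 : (u * u) * (u * u) = 1 := by
    rw [huu, ← ofAdd_add]
    simp only [Prod.mk_add_mk, add_zero, hc4]
    rfl
  refine ⟨u * u, u, huu1, hu4, huu1, hu4, ?_⟩
  rw [Nat.card_eq_fintype_card, Fintype.card_multiplicative, Fintype.card_prod, ZMod.card]
  have : 4 ≤ 2 ^ m := by
    calc 4 = 2 ^ 2 := by norm_num
      _ ≤ 2 ^ m := Nat.pow_le_pow_right (by norm_num) hm
  nlinarith

end Cfsg.Agent.H59.HC
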