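import Mathlib
import Cfsg.Agent.H64.JyDefs
import Cfsg.Agent.H64.JzFinal
import Cfsg.Agent.H97.JyPFacts
import Cfsg.Agent.S2950
import Cfsg.Agent.H51.Local
import Cfsg.Agent.H51.Amalgam
import Cfsg.Agent.H54.UqO2SN
import Cfsg.Agent.Helper55.J48

/-!
# JX-PSIDE (S2953, JY-KILL2): the `P`-side interface for `Base S M T K L`

With `D := O₂(K ⊔ T)`: `D` has index `≤ 2` in `T` (products of two elements of `T ∖ D` lie in
`D`), `T ∖ D` inverts `K` modulo `D`, and `K` has an element of order 3 outside `M`.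
-/

set_option autoImplicit false
open Cfsg

namespace Cfsg.Agent.H59.Jx

open Cfsg.Agent.H64.Jz

universe u

/-- The `P`-side interface (the statement posted by the KILL2 lead). -/
def StPSide : Prop := ∀ {G : Type u} [Group G] [Finite G] (S : Sylow 2 G) (M T K L : Subgroup G),
  Cfsg.Agent.H64.Jz.Base S M T K L →
  (∀ a ∈ T, ∀ b ∈ T, a ∉ pCoreOf 2 (K ⊔ T) → b ∉ pCoreOf 2 (K ⊔ T) →
    a * b ∈ pCoreOf 2 (K ⊔ T)) ∧
  (∀ x ∈ T, x ∉ pCoreOf 2 (K ⊔ T) → ∀ g ∈ K, x * g * x⁻¹ * g ∈ pCoreOf 2 (K ⊔ T)) ∧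
  ∃ k ∈ K, k ^ 3 = 1 ∧ k ∉ M

/-- `N_G(K) ≤ N_G(O₂(K))`. -/
theorem normalizer_le_normalizer_core {G : Type u} [Group G] [Finite G] (K : Subgroup G) :
    Subgroup.normalizer (K : Set G) ≤ Subgroup.normalizer (pCoreOf 2 K : Set G) := by
  have key : ∀ g ∈ Subgroup.normalizer (K : Set G),
      Cfsg.Agent.H59.PushKill.cj (pCoreOf 2 K) g = pCoreOf 2 K := by
    intro g hg
    have h1 := Cfsg.Agent.H51.pCoreOf_map 2 K (MulAut.conj g)
    have h2 : K.map (MulAut.conj g).toMonoidHom = K :=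
      Cfsg.Agent.H59.PushKill.cj_eq_of_mem_normalizer hg
    rw [h2] at h1
    exact h1.symm
  intro g hg
  exact Cfsg.Agent.H59.PushKill.mem_normalizer_of_cj_le (key g hg).le (key g⁻¹ (inv_mem hg)).le

/-- JX-PSIDE. -/
theorem pSide : StPSide.{u} := by
  intro G _ _ S M T K L hB
  have hTK : T ≤ Subgroup.normalizer (K : Set G) :=
    normFinal S M T K L hB (stMain S M T K L hB)
  obtain ⟨hZN, hO, hM, hMJ, hT, -, hK, hLmax, hKL⟩ := hB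
  obtain ⟨hc2, hsolv, hZ⟩ := hZN
  obtain ⟨L₀, -, -, huniq, hsn₀, hSyl₀⟩ :=
    Cfsg.Agent.S2950.result hc2 hsolv hZ hO S M hM hMJ T hT K hK
  have hLL₀ : L = L₀ := huniq L hLmax hKL
  have hSyl : IsSylowTwoIn T L := by rw [hLL₀]; exact hSyl₀
  have hsn : (K.subgroupOf L).IsSubnormal := by rw [hLL₀]; exact hsn₀
  have hKL' : K ≤ L := le_sup_left.trans hKL
  have hQT : pCoreOf 2 L ≤ T := Cfsg.Agent.Helper55.J48.pCoreOf_le_of_sylowIn hSyl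
  have hOT : pCoreOf 2 K ≤ T := (Cfsg.Agent.H54.Uq.o2sn K L hKL' hsn).trans hQT
  have hOK : pCoreOf 2 K ≤ K := Cfsg.Agent.H51.pCoreOf_le 2 K
  have hT2 : IsPGroup 2 ↥T := hSyl.2.1
  obtain ⟨-, -, hTM, -⟩ := hT.1
  obtain ⟨hK0, hKnM, -⟩ := hK
  obtain ⟨hgen, -, hidx3, -, -, -⟩ := hK0.1
  have hKn2 : ¬ IsPGroup 2 ↥K := by
    intro h2
    have hle : K ≤ pCoreOf 2 K := Cfsg.Agent.H51.le_pCoreOf 2 le_rfl Subgroup.le_normalizer h2
    have h1 : (pCoreOf 2 K).relIndex K = 1 := Subgroup.relIndex_eq_one.mpr hle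
    omega
  have hOnK : K ≤ Subgroup.normalizer (pCoreOf 2 K : Set G) :=
    Cfsg.Agent.H51.le_normalizer_pCoreOf 2 K
  have hOnT : T ≤ Subgroup.normalizer (pCoreOf 2 K : Set G) :=
    hTK.trans (normalizer_le_normalizer_core K)
  obtain ⟨D, k, hDT, hOD, hKD, hTD, hidx, hinv, -, -, hkK, -, hk3, hKO, hdich⟩ :=
    Cfsg.Agent.H97.Jy.pfacts K T (pCoreOf 2 K) hT2 hTK hOK hOT hidx3 hOnK hOnT hgen
  have hPD : K ⊔ T ≤ Subgroup.normalizer (D : Set G) := sup_le hKD hTD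
  have hDO : D ≤ pCoreOf 2 (K ⊔ T) :=
    Cfsg.Agent.H51.le_pCoreOf 2 (hDT.trans le_sup_right) hPD (hT2.to_le hDT)
  have hOD' : pCoreOf 2 (K ⊔ T) ≤ D := by
    rcases hdich (pCoreOf 2 (K ⊔ T)) (Cfsg.Agent.H51.pCoreOf_le 2 (K ⊔ T))
      (Cfsg.Agent.H51.le_normalizer_pCoreOf 2 (K ⊔ T)) with h | h
    · exact h
    · exact absurd ((Cfsg.Agent.H51.pCoreOf_isPGroup 2 (K ⊔ T)).to_le h) hKn2
  have hEq : pCoreOf 2 (K ⊔ T) = D := le_antisymm hOD' hDO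
  rw [hEq]
  refine ⟨hidx, fun x hx hxD g hg => hOD (hinv x hx hxD g hg), k, hkK, hk3, ?_⟩
  intro hkM
  apply hKnM
  intro g hg
  obtain ⟨o, ho, i, rfl⟩ := hKO g hg
  exact M.mul_mem (hTM (hOT ho)) (M.pow_mem hkM i)

example : StPSide.{u} := pSide

end Cfsg.Agent.H59.Jx

#print axioms Cfsg.Agent.H59.Jx.pSide
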