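import Cfsg.Agent.H52.JxDefs
import Cfsg.Agent.H52.JxKB
import Cfsg.Agent.H5.JxKA
import Cfsg.Agent.H48.JxVne
import Cfsg.Agent.H59.JxStar
import Cfsg.Agent.H59.JxPF
import Cfsg.Agent.H59.JxPSide

/-!
# JY-KILL2 (S2953): the residual configuration is impossible — final wiring

Case `V ⊄ Q₁`: `kb_of star pf (kbNorm_of pSide vne pf)` (helper52's glue on `r1_out_core`).
Case `V ≤ Q₁`: helper5's `ka_of_pside pf pInv pDidx` (on helper82's `caseA`).
-/

set_option autoImplicit false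
open Cfsg

namespace Cfsg.Agent.H59.Jx

open Cfsg.Agent.H52.Jx

universe u

theorem pInv : Cfsg.Agent.H5.Jx.PInv.{u} := fun S M T K L hB => (pSide S M T K L hB).2.1

theorem pDidx : Cfsg.Agent.H5.Jx.PDidx.{u} := fun S M T K L hB => (pSide S M T K L hB).1

/-- KA. -/
theorem ka : StKA.{u} := Cfsg.Agent.H5.Jx.ka_of_pside pf pInv pDidx

/-- KB-NORM. -/
theorem kbNorm : StKBNorm.{u} := kbNorm_of pSide Cfsg.Agent.H48.Jx.stVne pf

/-- KB. -/
theorem kb : StKB.{u} := kb_of star pf kbNorm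

/-- JY-KILL2. -/
theorem kill2 : Cfsg.Agent.H64.Jy.StKill2.{u} := kill2_of ka kb

example : Cfsg.Agent.H64.Jy.StKill2.{u} := kill2

end Cfsg.Agent.H59.Jx

#print axioms Cfsg.Agent.H59.Jx.kill2
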