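import Mathlib
import Cfsg.Agent.H21.SimpleTools

/-!
# Small Sylow tools for order eliminations (helper59)
-/

set_option autoImplicit false

open Subgroup

namespace Cfsg.Agent.H59.SylTools

/-- A subgroup of prime order centralizes itself. -/
theorem le_centralizer_of_card_prime {G : Type*} [Group G] (P : Subgroup G) (p : ℕ)
    [Fact p.Prime] (hP : Nat.card P = p) : P ≤ Subgroup.centralizer (P : Set G) := by
  have hc : IsCyclic P := isCyclic_of_prime_card hP
  intro x hx
  rw [Subgroup.mem_centralizer_iff]
  intro y hy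
  have := (IsCyclic.commGroup (α := P)).mul_comm ⟨y, hy⟩ ⟨x, hx⟩
  exact congrArg Subtype.val this

/-- If Sylow `q`-subgroups have order `q`, every element of order `q` generates one. -/
theorem exists_sylow_eq_zpowers {G : Type*} [Group G] [Finite G] (q : ℕ) [Fact q.Prime]
    (hS : ∀ Q : Sylow q G, Nat.card (Q : Subgroup G) = q) (y : G) (hy : orderOf y = q) :
    ∃ Q : Sylow q G, (Q : Subgroup G) = zpowers y := by
  have hpg : IsPGroup q (zpowers y) :=
    IsPGroup.of_card (n := 1) (by rw [Nat.card_zpowers, hy, pow_one])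
  obtain ⟨Q, hQ⟩ := hpg.exists_le_sylow
  refine ⟨Q, (Subgroup.eq_of_le_of_card_ge hQ ?_).symm⟩
  rw [hS Q, Nat.card_zpowers, hy]

/-- A subgroup commuting with `y` centralizes `zpowers y`. -/
theorem le_centralizer_zpowers {G : Type*} [Group G] (H : Subgroup G) (y : G)
    (h : ∀ x ∈ H, x * y = y * x) : H ≤ centralizer (zpowers y : Set G) := by
  intro x hx
  rw [Subgroup.mem_centralizer_iff]
  intro z hz
  obtain ⟨k, rfl⟩ := Subgroup.mem_zpowers_iff.mp hz
  exact ((Commute.zpow_left (show Commute y x from (h x hx).symm) k)).eq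

/-- `zpowers y` centralizes a subgroup commuting with `y`. -/
theorem zpowers_le_centralizer {G : Type*} [Group G] (H : Subgroup G) (y : G)
    (h : ∀ x ∈ H, x * y = y * x) : zpowers y ≤ centralizer (H : Set G) := by
  intro z hz
  rw [Subgroup.mem_centralizer_iff]
  intro x hx
  obtain ⟨k, rfl⟩ := Subgroup.mem_zpowers_iff.mp hz
  exact ((Commute.zpow_right (show Commute x y from h x hx) k)).eq

/-- An element of prime order `p` normalizing `T` centralizes `T`, as soon as `|T|` is the only
divisor of `|T|` congruent to `|T|` modulo `p`. -/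
theorem centralizes_of_normalizes {G : Type*} [Group G] [Finite G] (p : ℕ) [Fact p.Prime]
    (f : G) (hf : orderOf f = p) (T : Subgroup G) (hfT : f ∈ normalizer (T : Set G))
    (hT : ∀ d, d ∣ Nat.card T → d % p = Nat.card T % p → d = Nat.card T) :
    ∀ t ∈ T, f * t = t * f := by
  let f' : normalizer (T : Set G) := ⟨f, hfT⟩
  have hf' : orderOf f' = p := by rw [← hf]; exact Subgroup.orderOf_mk f hfT
  have hpg : IsPGroup p (zpowers f') :=
    IsPGroup.of_card (n := 1) (by rw [Nat.card_zpowers, hf', pow_one])
  have h1 := hpg.card_modEq_card_fixedPoints T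
  let K : Subgroup T := (centralizer ({f} : Set G)).subgroupOf T
  have hsmul : ∀ (g : normalizer (T : Set G)) (t : T), ((g • t : T) : G) = g * t * (g : G)⁻¹ :=
    fun g t => rfl
  have hK : (K : Set T) = MulAction.fixedPoints (zpowers f') T := by
    ext t
    rw [MulAction.mem_fixedPoints]
    constructor
    · intro ht g
      have ht' : (t : G) ∈ centralizer ({f} : Set G) := ht
      rw [Subgroup.mem_centralizer_iff] at ht'
      have hft : f * (t : G) = (t : G) * f := ht' f (Set.mem_singleton f)
      obtain ⟨g, hg⟩ := g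
      obtain ⟨k, rfl⟩ := Subgroup.mem_zpowers_iff.mp hg
      apply Subtype.ext
      change ((f' ^ k • t : T) : G) = t
      rw [hsmul]
      have hc : Commute ((f' ^ k : normalizer (T : Set G)) : G) (t : G) := by
        have : ((f' ^ k : normalizer (T : Set G)) : G) = f ^ k := by simp [f']
        rw [this]
        exact Commute.zpow_left hft k
      rw [hc.eq, mul_inv_cancel_right]
    · intro ht
      have h2 := ht ⟨f', mem_zpowers f'⟩
      have h3 : ((f' • t : T) : G) = t := congrArg Subtype.val h2
      rw [hsmul] at h3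
      change (t : G) ∈ centralizer ({f} : Set G)
      rw [Subgroup.mem_centralizer_iff]
      intro x hx
      rw [Set.mem_singleton_iff] at hx
      subst hx
      have h4 : (f' : G) = x := rfl
      rw [h4] at h3
      calc x * (t : G) = x * t * x⁻¹ * x := by group
        _ = t * x := by rw [h3]
  have hcard : Nat.card (MulAction.fixedPoints (zpowers f') T) = Nat.card K := by
    rw [← hK]; rfl
  rw [hcard] at h1
  have hKT : Nat.card K = Nat.card T :=
    hT _ (Subgroup.card_subgroup_dvd_card K) h1.symm
  have hKtop : K = ⊤ := Subgroup.card_eq_iff_eq_top K |>.mp hKT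
  intro t ht
  have : (⟨t, ht⟩ : T) ∈ K := by rw [hKtop]; trivial
  have ht' : t ∈ centralizer ({f} : Set G) := this
  rw [Subgroup.mem_centralizer_iff] at ht'
  exact ht' f (Set.mem_singleton f)

/-- If `C` has a unique Sylow `q`-subgroup `S`, every `q`-subgroup of `C` lies in it. -/
theorem le_map_of_card_sylow_eq_one {G : Type*} [Group G] [Finite G] (C : Subgroup G) (q : ℕ)
    [Fact q.Prime] (h1 : Nat.card (Sylow q C) = 1) (S : Sylow q C) (K : Subgroup G)
    (hK : K ≤ C) (hKq : IsPGroup q K) : K ≤ (S : Subgroup C).map C.subtype := by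
  have hsub : Subsingleton (Sylow q C) := (Nat.card_eq_one_iff_unique.mp h1).1
  have hq : IsPGroup q (K.subgroupOf C) := by
    have : IsPGroup q (K.subgroupOf C) :=
      hKq.comap_of_injective C.subtype C.subtype_injective
    exact this
  obtain ⟨S', hS'⟩ := hq.exists_le_sylow
  have hSS : S' = S := Subsingleton.elim _ _
  rw [hSS] at hS'
  intro x hx
  have hxC : x ∈ C := hK hx
  have : (⟨x, hxC⟩ : C) ∈ (S : Subgroup C) := hS' (by
    rw [Subgroup.mem_subgroupOf]; exact hx)
  exact ⟨⟨x, hxC⟩, this, rfl⟩

/-- If `C` is normalized by `N` and has a unique Sylow `q`-subgroup `S`, then `N` normalizes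
(the image of) `S`. -/
theorem le_normalizer_of_card_sylow_eq_one {G : Type*} [Group G] [Finite G] (C N : Subgroup G)
    (hnorm : ∀ g ∈ N, ∀ x ∈ C, g * x * g⁻¹ ∈ C) (q : ℕ) [Fact q.Prime]
    (h1 : Nat.card (Sylow q C) = 1) (S : Sylow q C) :
    N ≤ normalizer (((S : Subgroup C).map C.subtype : Subgroup G) : Set G) := by
  set F : Subgroup G := (S : Subgroup C).map C.subtype with hF
  have hFC : F ≤ C := by
    rintro x ⟨y, -, rfl⟩
    exact y.2
  have hFq : IsPGroup q F := by
    have := S.2
    exact this.map C.subtype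
  -- conjugates of `F` by elements of `N` lie in `F`
  have hconj : ∀ g ∈ N, ∀ x ∈ F, g * x * g⁻¹ ∈ F := by
    intro g hg x hx
    -- the conjugate subgroup
    let K : Subgroup G := F.map (MulAut.conj g).toMonoidHom
    have hKC : K ≤ C := by
      rintro y ⟨z, hz, rfl⟩
      exact hnorm g hg z (hFC hz)
    have hKq : IsPGroup q K := hFq.map _
    have hKF := le_map_of_card_sylow_eq_one C q h1 S K hKC hKq
    exact hKF ⟨x, hx, rfl⟩
  intro g hg
  rw [Subgroup.mem_normalizer_iff]
  intro x
  constructor
  · exact hconj g hg x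
  · intro hx
    have := hconj g⁻¹ (inv_mem hg) _ hx
    have e : g⁻¹ * (g * x * g⁻¹) * g⁻¹⁻¹ = x := by group
    rwa [e] at this

/-- The normalizer of a subgroup normalizes its centralizer. -/
theorem normalizer_conj_centralizer {G : Type*} [Group G] (P : Subgroup G) :
    ∀ g ∈ normalizer (P : Set G), ∀ x ∈ centralizer (P : Set G),
      g * x * g⁻¹ ∈ centralizer (P : Set G) := by
  intro g hg x hx
  rw [Subgroup.mem_centralizer_iff] at hx ⊢
  intro y hy
  have hy' : g⁻¹ * y * g⁻¹⁻¹ ∈ P := by
    have := (Subgroup.mem_normalizer_iff.mp (inv_mem hg) y).mp hy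
    exact this
  have h1 := hx _ hy'
  -- (g⁻¹ y g) * x = x * (g⁻¹ y g)
  rw [inv_inv] at h1
  calc y * (g * x * g⁻¹) = g * ((g⁻¹ * y * g) * x) * g⁻¹ := by group
    _ = g * (x * (g⁻¹ * y * g)) * g⁻¹ := by rw [h1]
    _ = g * x * g⁻¹ * y := by group

/-- If `P ≤ C(P)`, the order of `P` divides the order of the normalizer (in `C(P)`) of any
subgroup of `C(P)`. -/
theorem card_dvd_card_normalizer_in_centralizer {G : Type*} [Group G] [Finite G]
    (P : Subgroup G) (hP : P ≤ centralizer (P : Set G))
    (S : Subgroup (centralizer (P : Set G))) :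
    Nat.card P ∣ Nat.card (normalizer (S : Set (centralizer (P : Set G)))) := by
  have hle : P.subgroupOf (centralizer (P : Set G)) ≤
      normalizer (S : Set (centralizer (P : Set G))) := by
    intro x hx
    rw [Subgroup.mem_subgroupOf] at hx
    rw [Subgroup.mem_normalizer_iff]
    intro y
    have hy : (y : G) ∈ centralizer (P : Set G) := y.2
    rw [Subgroup.mem_centralizer_iff] at hy
    have hxy : x * y * x⁻¹ = y := by
      apply Subtype.ext
      have := hy x hx
      change (x : G) * (y : G) * (x : G)⁻¹ = y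
      rw [this, mul_inv_cancel_right]
    rw [hxy]
  have h1 := Subgroup.card_dvd_of_le hle
  have h2 : Nat.card (P.subgroupOf (centralizer (P : Set G))) = Nat.card P :=
    Nat.card_congr (Subgroup.subgroupOfEquivOfLe hP).toEquiv
  rwa [h2] at h1

/-- Divisors of `8`. -/
theorem dvd_eight {a : ℕ} (h : a ∣ 8) : a = 1 ∨ a = 2 ∨ a = 4 ∨ a = 8 := by
  have := Nat.le_of_dvd (by norm_num) h
  interval_cases a <;> omega

/-- Divisors of `4`. -/
theorem dvd_four {a : ℕ} (h : a ∣ 4) : a = 1 ∨ a = 2 ∨ a = 4 := by
  have := Nat.le_of_dvd (by norm_num) h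
  interval_cases a <;> omega

end Cfsg.Agent.H59.SylTools
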