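import Mathlib
import Cfsg.Agent.H59.SylTools

/-!
# Counting `p`-singular elements when the Sylow `p`-subgroups have order `p` (helper59)

`card_singular_ge`: if all Sylow `p`-subgroups have order `p` and centralizers of order at least
`c`, then the number `s` of elements of order divisible by `p` satisfies
`n_p * (c * (p - 1)) ≤ s * p`.
-/

set_option autoImplicit false

open Subgroup

namespace Cfsg.Agent.H59.SylTools

/-- An element of order `p` centralizing a Sylow `p`-subgroup lies in it. -/
theorem mem_sylow_of_mem_centralizer {G : Type*} [Group G] [Finite G] (p : ℕ) [Fact p.Prime]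
    (P : Sylow p G) (y : G) (hy : orderOf y = p)
    (hyC : y ∈ centralizer ((P : Subgroup G) : Set G)) : y ∈ (P : Subgroup G) := by
  have hpg : IsPGroup p (zpowers y) :=
    IsPGroup.of_card (n := 1) (by rw [Nat.card_zpowers, hy, pow_one])
  have hle : zpowers y ≤ normalizer ((P : Subgroup G) : Set G) := by
    rw [Subgroup.zpowers_le]
    exact Subgroup.centralizer_le_normalizer _ hyC
  have hsup : IsPGroup p (zpowers y ⊔ (P : Subgroup G) : Subgroup G) :=
    hpg.to_sup_of_normal_right' P.isPGroup' hle
  have := P.is_maximal' hsup le_sup_right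
  have h2 : zpowers y ≤ (P : Subgroup G) := by
    rw [← this]; exact le_sup_left
  exact h2 (mem_zpowers y)

/-- If `g`, `g * w` are `p`-regular, commute and `w ^ p = 1`, then `w = 1`. -/
theorem eq_one_of_regular {G : Type*} [Group G] (p : ℕ) [Fact p.Prime] (g w : G)
    (hgw : g * w = w * g) (hw : w ^ p = 1) (hg : ¬ p ∣ orderOf g)
    (hgw' : ¬ p ∣ orderOf (g * w)) : w = 1 := by
  have h1 : (g * w) ^ (orderOf g * orderOf (g * w)) = 1 := by
    rw [pow_mul', pow_orderOf_eq_one, one_pow]
  rw [(show Commute g w from hgw).mul_pow] at h1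
  have h2 : g ^ (orderOf g * orderOf (g * w)) = 1 := by
    rw [pow_mul, pow_orderOf_eq_one, one_pow]
  rw [h2, one_mul] at h1
  have h3 : orderOf w ∣ orderOf g * orderOf (g * w) := orderOf_dvd_of_pow_eq_one h1
  have h4 : orderOf w ∣ p := orderOf_dvd_of_pow_eq_one hw
  rcases (Nat.dvd_prime Fact.out).mp h4 with h5 | h5
  · exact orderOf_eq_one_iff.mp h5
  · exfalso
    rw [h5] at h3
    rcases (Nat.Prime.dvd_mul Fact.out).mp h3 with h6 | h6
    · exact hg h6
    · exact hgw' h6

/-- The `p`-regular elements of `C(P)` are at most `|C(P)| / p`. -/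
theorem card_regular_mul_le {G : Type*} [Group G] [Finite G] (p : ℕ) [Fact p.Prime]
    (P : Subgroup G) (hP : Nat.card P = p) :
    Nat.card {g : centralizer (P : Set G) // ¬ p ∣ orderOf (g : G)} * p
      ≤ Nat.card (centralizer (P : Set G)) := by
  have hPC : P ≤ centralizer (P : Set G) := le_centralizer_of_card_prime P p hP
  let Ψ : {g : centralizer (P : Set G) // ¬ p ∣ orderOf (g : G)} × P → centralizer (P : Set G) :=
    fun x => x.1.1 * ⟨x.2.1, hPC x.2.2⟩
  have hΨ : Function.Injective Ψ := by
    rintro ⟨⟨g, hg⟩, z⟩ ⟨⟨g', hg'⟩, z'⟩ h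
    have h' : (g : G) * (z : G) = (g' : G) * (z' : G) := congrArg Subtype.val h
    have hw : ((z : G) * (z' : G)⁻¹) ∈ P := mul_mem z.2 (inv_mem z'.2)
    have hg'eq : (g' : G) = (g : G) * ((z : G) * (z' : G)⁻¹) := by
      rw [← mul_assoc, h', mul_inv_cancel_right]
    have hcomm : (g : G) * ((z : G) * (z' : G)⁻¹) = ((z : G) * (z' : G)⁻¹) * (g : G) := by
      have := g.2
      rw [Subgroup.mem_centralizer_iff] at this
      exact (this _ hw).symm
    have hwp : ((z : G) * (z' : G)⁻¹) ^ p = 1 := by
      have := pow_card_eq_one' (G := P) (x := ⟨_, hw⟩)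
      rw [hP] at this
      exact congrArg Subtype.val this
    have key : (z : G) * (z' : G)⁻¹ = 1 :=
      eq_one_of_regular p (g : G) _ hcomm hwp hg (by rw [← hg'eq]; exact hg')
    have hzz : (z : G) = z' := mul_inv_eq_one.mp key
    have hgg : (g : G) = g' := by
      rw [hg'eq, key, mul_one]
    have e1 : g = g' := Subtype.ext hgg
    have e2 : z = z' := Subtype.ext hzz
    subst e1 e2
    rfl
  have := Nat.card_le_card_of_injective Ψ hΨ
  rwa [Nat.card_prod, hP] at this

/-- The `p`-singular elements of `C(P)` are at least `|C(P)| (p - 1) / p`. -/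
theorem card_singular_centralizer_ge {G : Type*} [Group G] [Finite G] (p : ℕ) [Fact p.Prime]
    (P : Subgroup G) (hP : Nat.card P = p) :
    Nat.card (centralizer (P : Set G)) * (p - 1)
      ≤ Nat.card {g : centralizer (P : Set G) // p ∣ orderOf (g : G)} * p := by
  classical
  have h1 := card_regular_mul_le p P hP
  have hfin : Fintype (centralizer (P : Set G)) := Fintype.ofFinite _
  have h2 : Nat.card {g : centralizer (P : Set G) // p ∣ orderOf (g : G)}
      + Nat.card {g : centralizer (P : Set G) // ¬ p ∣ orderOf (g : G)}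
      = Nat.card (centralizer (P : Set G)) := by
    rw [Nat.card_eq_fintype_card, Nat.card_eq_fintype_card, Nat.card_eq_fintype_card,
      Fintype.card_subtype_compl]
    have := Fintype.card_subtype_le (fun g : centralizer (P : Set G) => p ∣ orderOf (g : G))
    omega
  have hp : 1 ≤ p := (Fact.out : p.Prime).one_lt.le
  generalize Nat.card {g : centralizer (P : Set G) // p ∣ orderOf (g : G)} = a at h2 ⊢
  generalize Nat.card {g : centralizer (P : Set G) // ¬ p ∣ orderOf (g : G)} = b at h1 h2
  generalize Nat.card (centralizer (P : Set G)) = c at h1 h2 ⊢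
  obtain ⟨k, rfl⟩ : ∃ k, p = k + 1 := ⟨p - 1, by omega⟩
  simp only [Nat.add_sub_cancel]
  subst h2
  nlinarith

/-- An element of order divisible by `p` centralizes a Sylow `p`-subgroup, when these have
order `p`. -/
theorem exists_sylow_mem_centralizer {G : Type*} [Group G] [Finite G] (p : ℕ) [Fact p.Prime]
    (hS : ∀ P : Sylow p G, Nat.card (P : Subgroup G) = p) (g : G) (hg : p ∣ orderOf g) :
    ∃ P : Sylow p G, g ∈ centralizer ((P : Subgroup G) : Set G) := by
  have hpos : 0 < orderOf g := orderOf_pos g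
  have hp : 0 < p := (Fact.out : p.Prime).pos
  have hdvd : orderOf g / p ∣ orderOf g := Nat.div_dvd_of_dvd hg
  have hne : orderOf g / p ≠ 0 := by
    intro h0
    rw [h0] at hdvd
    exact hpos.ne' (zero_dvd_iff.mp hdvd)
  have hy : orderOf (g ^ (orderOf g / p)) = p := by
    rw [orderOf_pow_of_dvd hne hdvd]
    exact Nat.div_div_self hg hpos.ne'
  obtain ⟨P, hP⟩ := exists_sylow_eq_zpowers p hS _ hy
  refine ⟨P, ?_⟩
  rw [hP]
  have := le_centralizer_zpowers (zpowers g) (g ^ (orderOf g / p)) (by
    intro x hx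
    obtain ⟨k, rfl⟩ := Subgroup.mem_zpowers_iff.mp hx
    exact ((Commute.refl g).zpow_left k).pow_right _ |>.eq)
  exact this (mem_zpowers g)

/-- Lower bound for the number of `p`-singular elements. -/
theorem card_singular_ge {G : Type*} [Group G] [Finite G] (p : ℕ) [Fact p.Prime]
    (hS : ∀ P : Sylow p G, Nat.card (P : Subgroup G) = p) (c : ℕ)
    (hc : ∀ P : Sylow p G, c ≤ Nat.card (centralizer ((P : Subgroup G) : Set G))) :
    Nat.card (Sylow p G) * (c * (p - 1)) ≤ Nat.card {g : G // p ∣ orderOf g} * p := by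
  classical
  have hfin : Fintype (Sylow p G) := Fintype.ofFinite _
  have hA : ∀ P : Sylow p G, c * (p - 1) ≤
      Nat.card {g : centralizer ((P : Subgroup G) : Set G) // p ∣ orderOf (g : G)} * p :=
    fun P => le_trans (Nat.mul_le_mul_right _ (hc P))
      (card_singular_centralizer_ge p (P : Subgroup G) (hS P))
  let Φ : (Σ P : Sylow p G,
      {g : centralizer ((P : Subgroup G) : Set G) // p ∣ orderOf (g : G)}) →
      {g : G // p ∣ orderOf g} := fun x => ⟨x.2.1.1, x.2.2⟩
  have hΦ : Function.Injective Φ := by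
    rintro ⟨P, ⟨g, hgC⟩, hg⟩ ⟨P', ⟨g', hgC'⟩, hg'⟩ h
    have hgg : g = g' := congrArg Subtype.val h
    subst hgg
    have hpos : 0 < orderOf g := orderOf_pos g
    have hdvd : orderOf g / p ∣ orderOf g := Nat.div_dvd_of_dvd hg
    have hne : orderOf g / p ≠ 0 := by
      intro h0
      rw [h0] at hdvd
      exact hpos.ne' (zero_dvd_iff.mp hdvd)
    have hy : orderOf (g ^ (orderOf g / p)) = p := by
      rw [orderOf_pow_of_dvd hne hdvd]
      exact Nat.div_div_self hg hpos.ne'
    have m1 := mem_sylow_of_mem_centralizer p P _ hy (pow_mem hgC _)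
    have m2 := mem_sylow_of_mem_centralizer p P' _ hy (pow_mem hgC' _)
    have e1 : zpowers (g ^ (orderOf g / p)) = (P : Subgroup G) := by
      apply Subgroup.eq_of_le_of_card_ge
      · rw [Subgroup.zpowers_le]; exact m1
      · rw [hS P, Nat.card_zpowers, hy]
    have e2 : zpowers (g ^ (orderOf g / p)) = (P' : Subgroup G) := by
      apply Subgroup.eq_of_le_of_card_ge
      · rw [Subgroup.zpowers_le]; exact m2
      · rw [hS P', Nat.card_zpowers, hy]
    have ePP : P = P' := Sylow.ext (e1.symm.trans e2)
    subst ePP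
    rfl
  have h1 := Nat.card_le_card_of_injective Φ hΦ
  rw [Nat.card_sigma] at h1
  calc Nat.card (Sylow p G) * (c * (p - 1))
      = ∑ _P : Sylow p G, c * (p - 1) := by
        rw [Finset.sum_const, Finset.card_univ, Nat.card_eq_fintype_card, smul_eq_mul]
    _ ≤ ∑ P : Sylow p G,
          Nat.card {g : centralizer ((P : Subgroup G) : Set G) // p ∣ orderOf (g : G)} * p :=
        Finset.sum_le_sum (fun P _ => hA P)
    _ = (∑ P : Sylow p G,
          Nat.card {g : centralizer ((P : Subgroup G) : Set G) // p ∣ orderOf (g : G)}) * p :=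
        (Finset.sum_mul _ _ _).symm
    _ ≤ Nat.card {g : G // p ∣ orderOf g} * p := Nat.mul_le_mul_right _ h1

end Cfsg.Agent.H59.SylTools
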