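import Mathlib
import Cfsg.Agent.H21.SimpleTools
import Cfsg.Agent.H59.SylTools
import Cfsg.Agent.H59.SingCount

/-!
# S4274-F: no simple group of order 35112 = 8 * 3 * 7 * 11 * 19
-/

set_option autoImplicit false

open Subgroup

namespace Cfsg.Agent.H59.Ord175560

open Cfsg.Agent.H21 Cfsg.Agent.H59.SylTools

/-- Candidates for `n_19`. -/
theorem cases_1848 {n : ℕ} (h : n ∣ 1848) (hmod : n % 19 = 1) (hne : n ≠ 1) : n = 77 := by
  have h' : n ∣ 8 * (3 * (7 * 11)) := h
  obtain ⟨a, r, ha, hr, rfl⟩ := Nat.dvd_mul.mp h'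
  obtain ⟨b, r', hb, hr', rfl⟩ := Nat.dvd_mul.mp hr
  obtain ⟨c, d, hc, hd, rfl⟩ := Nat.dvd_mul.mp hr'
  rcases dvd_eight ha with rfl | rfl | rfl | rfl <;>
  rcases (Nat.dvd_prime (by norm_num)).mp hb with rfl | rfl <;>
  rcases (Nat.dvd_prime (by norm_num)).mp hc with rfl | rfl <;>
  rcases (Nat.dvd_prime (by norm_num)).mp hd with rfl | rfl <;> omega

/-- Candidates for `n_11`. -/
theorem cases_3192 {n : ℕ} (h : n ∣ 3192) (hmod : n % 11 = 1) (hne : n ≠ 1) :
    n = 12 ∨ n = 56 ∨ n = 133 ∨ n = 1596 := by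
  have h' : n ∣ 8 * (3 * (7 * 19)) := h
  obtain ⟨a, r, ha, hr, rfl⟩ := Nat.dvd_mul.mp h'
  obtain ⟨b, r', hb, hr', rfl⟩ := Nat.dvd_mul.mp hr
  obtain ⟨c, d, hc, hd, rfl⟩ := Nat.dvd_mul.mp hr'
  rcases dvd_eight ha with rfl | rfl | rfl | rfl <;>
  rcases (Nat.dvd_prime (by norm_num)).mp hb with rfl | rfl <;>
  rcases (Nat.dvd_prime (by norm_num)).mp hc with rfl | rfl <;>
  rcases (Nat.dvd_prime (by norm_num)).mp hd with rfl | rfl <;> omega

/-- Candidates for `n_7`. -/
theorem cases_5016 {n : ℕ} (h : n ∣ 5016) (hmod : n % 7 = 1) (hne : n ≠ 1) :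
    n = 8 ∨ n = 22 ∨ n = 57 ∨ n = 456 ∨ n = 1254 := by
  have h' : n ∣ 8 * (3 * (11 * 19)) := h
  obtain ⟨a, r, ha, hr, rfl⟩ := Nat.dvd_mul.mp h'
  obtain ⟨b, r', hb, hr', rfl⟩ := Nat.dvd_mul.mp hr
  obtain ⟨c, d, hc, hd, rfl⟩ := Nat.dvd_mul.mp hr'
  rcases dvd_eight ha with rfl | rfl | rfl | rfl <;>
  rcases (Nat.dvd_prime (by norm_num)).mp hb with rfl | rfl <;>
  rcases (Nat.dvd_prime (by norm_num)).mp hc with rfl | rfl <;>
  rcases (Nat.dvd_prime (by norm_num)).mp hd with rfl | rfl <;> omega

theorem no_simple_35112 {G : Type*} [Group G] [Finite G] [IsSimpleGroup G]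
    (h : Nat.card G = 35112) : False := by
  classical
  have hnp : ¬ (Nat.card G).Prime := by rw [h]; norm_num
  have hG : ¬ IsMulCommutative G := not_comm_of_not_prime hnp
  have hp7 : Fact (Nat.Prime 7) := ⟨by norm_num⟩
  have hp11 : Fact (Nat.Prime 11) := ⟨by norm_num⟩
  have hp19 : Fact (Nat.Prime 19) := ⟨by norm_num⟩
  have S7 := fun Q : Sylow 7 G => simple_sylow_facts hG (p := 7) (k := 1) (m := 5016)
    (by rw [h]; norm_num) (by norm_num) one_ne_zero Q
  have S11 := fun Q : Sylow 11 G => simple_sylow_facts hG (p := 11) (k := 1) (m := 3192)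
    (by rw [h]; norm_num) (by norm_num) one_ne_zero Q
  have S19 := fun Q : Sylow 19 G => simple_sylow_facts hG (p := 19) (k := 1) (m := 1848)
    (by rw [h]; norm_num) (by norm_num) one_ne_zero Q
  have c7 : ∀ Q : Sylow 7 G, Nat.card (Q : Subgroup G) = 7 := fun Q => by
    simpa using (S7 Q).1
  have c11 : ∀ Q : Sylow 11 G, Nat.card (Q : Subgroup G) = 11 := fun Q => by
    simpa using (S11 Q).1
  have c19 : ∀ Q : Sylow 19 G, Nat.card (Q : Subgroup G) = 19 := fun Q => by
    simpa using (S19 Q).1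
  -- Sylow 19
  have hn19 : Nat.card (Sylow 19 G) = 77 := by
    obtain ⟨R⟩ : Nonempty (Sylow 19 G) := inferInstance
    obtain ⟨-, -, -, hdvd, hmod, hne, -, -, -⟩ := S19 R
    exact cases_1848 hdvd hmod hne
  have N19 : ∀ R : Sylow 19 G, Nat.card (normalizer ((R : Subgroup G) : Set G)) = 456 := by
    intro R
    obtain ⟨-, -, -, -, -, -, -, hNn, -⟩ := S19 R
    rw [hn19, h] at hNn
    omega
  have C19 : ∀ R : Sylow 19 G, 76 ≤ Nat.card (centralizer ((R : Subgroup G) : Set G)) ∧
      Nat.card (centralizer ((R : Subgroup G) : Set G)) ∣ 456 := by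
    intro R
    obtain ⟨e, he, he1, hediv, -⟩ := simple_sylow_prime_card_NC hG R (c19 R)
    have hCN := card_centralizer_mul_relIndex_normalizer (R : Subgroup G)
    rw [← he, N19 R] at hCN
    refine ⟨?_, Dvd.intro _ hCN⟩
    have hd18 : e ∣ 18 := hediv
    have he18 := Nat.le_of_dvd (by norm_num) hd18
    interval_cases e <;> omega
  -- Sylow 11
  have hn11 : Nat.card (Sylow 11 G) = 133 ∨ Nat.card (Sylow 11 G) = 1596 := by
    obtain ⟨Q⟩ : Nonempty (Sylow 11 G) := inferInstance
    obtain ⟨-, -, -, hdvd, hmod, hne, hfac, hNn, -⟩ := S11 Q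
    obtain ⟨e, he, he1, hediv, -⟩ := simple_sylow_prime_card_NC hG Q (c11 Q)
    have hCN := card_centralizer_mul_relIndex_normalizer (Q : Subgroup G)
    rw [← he] at hCN
    have hd10 : e ∣ 10 := hediv
    have he10 := Nat.le_of_dvd (by norm_num) hd10
    rcases cases_3192 hdvd hmod hne with h12 | h56 | h133 | h1596
    · exfalso
      rw [h12, h] at hfac
      revert hfac
      decide
    · exfalso
      have hN : Nat.card (normalizer ((Q : Subgroup G) : Set G)) = 627 := by
        rw [h56, h] at hNn; omega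
      rw [hN] at hCN
      interval_cases e <;> omega
    · left; exact h133
    · right; exact h1596
  have C11 : ∀ Q : Sylow 11 G,
      Nat.card (Sylow 11 G) * Nat.card (centralizer ((Q : Subgroup G) : Set G)) = 17556 ∧
      ¬ 7 ∣ Nat.card (centralizer ((Q : Subgroup G) : Set G)) := by
    intro Q
    obtain ⟨-, -, -, -, -, -, -, hNn, -⟩ := S11 Q
    obtain ⟨e, he, he1, hediv, -⟩ := simple_sylow_prime_card_NC hG Q (c11 Q)
    have hCN := card_centralizer_mul_relIndex_normalizer (Q : Subgroup G)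
    rw [← he] at hCN
    have hd10 : e ∣ 10 := hediv
    have he10 := Nat.le_of_dvd (by norm_num) hd10
    rcases hn11 with h11 | h11
    · rw [h11, h] at hNn
      have hN : Nat.card (normalizer ((Q : Subgroup G) : Set G)) = 264 := by omega
      rw [hN] at hCN
      rw [h11]
      have hC : Nat.card (centralizer ((Q : Subgroup G) : Set G)) = 132 := by
        interval_cases e <;> omega
      rw [hC]
      constructor <;> norm_num
    · rw [h11, h] at hNn
      have hN : Nat.card (normalizer ((Q : Subgroup G) : Set G)) = 22 := by omega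
      rw [hN] at hCN
      rw [h11]
      have hC : Nat.card (centralizer ((Q : Subgroup G) : Set G)) = 11 := by
        interval_cases e <;> omega
      rw [hC]
      constructor <;> norm_num
  -- Sylow 7
  have key7 : ∀ P : Sylow 7 G, Nat.card (Sylow 7 G) = 1254 ∧
      Nat.card (centralizer ((P : Subgroup G) : Set G)) = 14 := by
    intro P
    obtain ⟨-, -, -, hdvd, hmod, hne, hfac, hNn, -⟩ := S7 P
    obtain ⟨e, he, he1, hediv, -⟩ := simple_sylow_prime_card_NC hG P (c7 P)
    have hCN := card_centralizer_mul_relIndex_normalizer (P : Subgroup G)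
    rw [← he] at hCN
    have hd6 : e ∣ 6 := hediv
    have he6 := Nat.le_of_dvd (by norm_num) hd6
    rcases cases_5016 hdvd hmod hne with h8 | h22 | h57 | h456 | h1254
    · exfalso
      rw [h8, h] at hfac
      revert hfac
      decide
    · exfalso
      have hN : Nat.card (normalizer ((P : Subgroup G) : Set G)) = 1596 := by
        rw [h22, h] at hNn; omega
      rw [hN] at hCN
      have h19 : 19 ∣ Nat.card (centralizer ((P : Subgroup G) : Set G)) := by
        interval_cases e <;> omega
      obtain ⟨z, hzC, hz⟩ := exists_mem_orderOf_eq_prime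
        (centralizer ((P : Subgroup G) : Set G)) 19 h19
      obtain ⟨R, hR⟩ := exists_sylow_eq_zpowers 19 c19 z hz
      have hPR : (P : Subgroup G) ≤ centralizer ((R : Subgroup G) : Set G) := by
        rw [hR]
        apply le_centralizer_zpowers
        intro x hx
        rw [Subgroup.mem_centralizer_iff] at hzC
        exact hzC x hx
      have h7 := Subgroup.card_dvd_of_le hPR
      rw [c7 P] at h7
      have h7' : 7 ∣ 456 := h7.trans (C19 R).2
      omega
    · exfalso
      have hN : Nat.card (normalizer ((P : Subgroup G) : Set G)) = 616 := by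
        rw [h57, h] at hNn; omega
      rw [hN] at hCN
      have h11 : 11 ∣ Nat.card (centralizer ((P : Subgroup G) : Set G)) := by
        interval_cases e <;> omega
      obtain ⟨z, hzC, hz⟩ := exists_mem_orderOf_eq_prime
        (centralizer ((P : Subgroup G) : Set G)) 11 h11
      obtain ⟨Q, hQ⟩ := exists_sylow_eq_zpowers 11 c11 z hz
      have hPQ : (P : Subgroup G) ≤ centralizer ((Q : Subgroup G) : Set G) := by
        rw [hQ]
        apply le_centralizer_zpowers
        intro x hx
        rw [Subgroup.mem_centralizer_iff] at hzC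
        exact hzC x hx
      have h7 := Subgroup.card_dvd_of_le hPQ
      rw [c7 P] at h7
      exact (C11 Q).2 h7
    · exfalso
      have hN : Nat.card (normalizer ((P : Subgroup G) : Set G)) = 77 := by
        rw [h456, h] at hNn; omega
      rw [hN] at hCN
      interval_cases e <;> omega
    · refine ⟨h1254, ?_⟩
      have hN : Nat.card (normalizer ((P : Subgroup G) : Set G)) = 28 := by
        rw [h1254, h] at hNn; omega
      rw [hN] at hCN
      interval_cases e <;> omega
  have hn7 : Nat.card (Sylow 7 G) = 1254 := by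
    obtain ⟨P⟩ : Nonempty (Sylow 7 G) := inferInstance
    exact (key7 P).1
  -- counts of singular elements
  have k7 := card_singular_ge 7 c7 14 (fun P => (key7 P).2.ge)
  have k19 := card_singular_ge 19 c19 76 (fun R => (C19 R).1)
  have k11 : 15960 ≤ Nat.card {g : G // 11 ∣ orderOf g} := by
    rcases hn11 with h11 | h11
    · have := card_singular_ge 11 c11 132 (fun Q => by
        have := (C11 Q).1; rw [h11] at this; omega)
      rw [h11] at this; omega
    · have := card_singular_ge 11 c11 11 (fun Q => by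
        have := (C11 Q).1; rw [h11] at this; omega)
      rw [h11] at this; omega
  rw [hn7] at k7
  rw [hn19] at k19
  have k7' : 15048 ≤ Nat.card {g : G // 7 ∣ orderOf g} := by omega
  have k19' : 5544 ≤ Nat.card {g : G // 19 ∣ orderOf g} := by omega
  -- the three sets are pairwise disjoint
  have hAB : Disjoint {g : G | 7 ∣ orderOf g} {g : G | 11 ∣ orderOf g} := by
    rw [Set.disjoint_left]
    intro g hgA hgB
    obtain ⟨Q, hQ⟩ := exists_sylow_mem_centralizer 11 c11 g hgB
    have hd := orderOf_dvd_card_of_mem _ g hQ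
    exact (C11 Q).2 (Dvd.dvd.trans hgA hd)
  have hAD : Disjoint {g : G | 7 ∣ orderOf g} {g : G | 19 ∣ orderOf g} := by
    rw [Set.disjoint_left]
    intro g hgA hgD
    obtain ⟨R, hR⟩ := exists_sylow_mem_centralizer 19 c19 g hgD
    have hd := (orderOf_dvd_card_of_mem _ g hR).trans (C19 R).2
    have h7 : 7 ∣ 456 := Dvd.dvd.trans hgA hd
    omega
  have hBD : Disjoint {g : G | 11 ∣ orderOf g} {g : G | 19 ∣ orderOf g} := by
    rw [Set.disjoint_left]
    intro g hgB hgD
    obtain ⟨R, hR⟩ := exists_sylow_mem_centralizer 19 c19 g hgD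
    have hd := (orderOf_dvd_card_of_mem _ g hR).trans (C19 R).2
    have h11 : 11 ∣ 456 := Dvd.dvd.trans hgB hd
    omega
  have hcard : ({g : G | 7 ∣ orderOf g} ∪ {g : G | 11 ∣ orderOf g} ∪
      {g : G | 19 ∣ orderOf g}).ncard = {g : G | 7 ∣ orderOf g}.ncard +
      {g : G | 11 ∣ orderOf g}.ncard + {g : G | 19 ∣ orderOf g}.ncard := by
    rw [Set.ncard_union_eq (Set.disjoint_union_left.mpr ⟨hAD, hBD⟩), Set.ncard_union_eq hAB]
  have hle := Set.ncard_le_card ({g : G | 7 ∣ orderOf g} ∪ {g : G | 11 ∣ orderOf g} ∪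
      {g : G | 19 ∣ orderOf g})
  rw [hcard, h] at hle
  have eA : {g : G | 7 ∣ orderOf g}.ncard = Nat.card {g : G // 7 ∣ orderOf g} :=
    (Nat.card_coe_set_eq _).symm
  have eB : {g : G | 11 ∣ orderOf g}.ncard = Nat.card {g : G // 11 ∣ orderOf g} :=
    (Nat.card_coe_set_eq _).symm
  have eD : {g : G | 19 ∣ orderOf g}.ncard = Nat.card {g : G // 19 ∣ orderOf g} :=
    (Nat.card_coe_set_eq _).symm
  omega

end Cfsg.Agent.H59.Ord175560
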