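import Mathlib
import Cfsg.Agent.H21.SimpleTools
import Cfsg.Agent.H59.SylTools

/-!
# S4274-G: no simple group of order 58520 = 8 * 5 * 7 * 11 * 19
-/

set_option autoImplicit false

open Subgroup

namespace Cfsg.Agent.H59.Ord175560

open Cfsg.Agent.H21 Cfsg.Agent.H59.SylTools

/-- Candidates for `n_11`. -/
theorem cases_5320 {n : ℕ} (h : n ∣ 5320) (hmod : n % 11 = 1) (hne : n ≠ 1) :
    n = 56 ∨ n = 133 ∨ n = 760 := by
  have h' : n ∣ 8 * (5 * (7 * 19)) := h
  obtain ⟨a, r, ha, hr, rfl⟩ := Nat.dvd_mul.mp h'
  obtain ⟨b, r', hb, hr', rfl⟩ := Nat.dvd_mul.mp hr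
  obtain ⟨c, d, hc, hd, rfl⟩ := Nat.dvd_mul.mp hr'
  rcases dvd_eight ha with rfl | rfl | rfl | rfl <;>
  rcases (Nat.dvd_prime (by norm_num)).mp hb with rfl | rfl <;>
  rcases (Nat.dvd_prime (by norm_num)).mp hc with rfl | rfl <;>
  rcases (Nat.dvd_prime (by norm_num)).mp hd with rfl | rfl <;> omega

/-- Candidates for `n_19`. -/
theorem cases_3080 {n : ℕ} (h : n ∣ 3080) (hmod : n % 19 = 1) (hne : n ≠ 1) :
    n = 20 ∨ n = 77 ∨ n = 1540 := by
  have h' : n ∣ 8 * (5 * (7 * 11)) := h
  obtain ⟨a, r, ha, hr, rfl⟩ := Nat.dvd_mul.mp h'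
  obtain ⟨b, r', hb, hr', rfl⟩ := Nat.dvd_mul.mp hr
  obtain ⟨c, d, hc, hd, rfl⟩ := Nat.dvd_mul.mp hr'
  rcases dvd_eight ha with rfl | rfl | rfl | rfl <;>
  rcases (Nat.dvd_prime (by norm_num)).mp hb with rfl | rfl <;>
  rcases (Nat.dvd_prime (by norm_num)).mp hc with rfl | rfl <;>
  rcases (Nat.dvd_prime (by norm_num)).mp hd with rfl | rfl <;> omega

/-- Candidates for `n_5`. -/
theorem cases_11704 {n : ℕ} (h : n ∣ 11704) (hmod : n % 5 = 1) (hne : n ≠ 1) :
    n = 11 ∨ n = 56 ∨ n = 76 ∨ n = 266 ∨ n = 616 ∨ n = 836 ∨ n = 2926 := by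
  have h' : n ∣ 8 * (7 * (11 * 19)) := h
  obtain ⟨a, r, ha, hr, rfl⟩ := Nat.dvd_mul.mp h'
  obtain ⟨b, r', hb, hr', rfl⟩ := Nat.dvd_mul.mp hr
  obtain ⟨c, d, hc, hd, rfl⟩ := Nat.dvd_mul.mp hr'
  rcases dvd_eight ha with rfl | rfl | rfl | rfl <;>
  rcases (Nat.dvd_prime (by norm_num)).mp hb with rfl | rfl <;>
  rcases (Nat.dvd_prime (by norm_num)).mp hc with rfl | rfl <;>
  rcases (Nat.dvd_prime (by norm_num)).mp hd with rfl | rfl <;> omega

/-- Divisors of `209 = 11 * 19` congruent to `1` modulo `7`. -/
theorem cases_209 {n : ℕ} (h : n ∣ 209) (hmod : n % 7 = 1) : n = 1 := by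
  have h' : n ∣ 11 * 19 := h
  obtain ⟨a, b, ha, hb, rfl⟩ := Nat.dvd_mul.mp h'
  rcases (Nat.dvd_prime (by norm_num)).mp ha with rfl | rfl <;>
  rcases (Nat.dvd_prime (by norm_num)).mp hb with rfl | rfl <;> omega

/-- Divisors of `133 = 7 * 19` congruent to `1` modulo `5`. -/
theorem cases_133 {n : ℕ} (h : n ∣ 133) (hmod : n % 5 = 1) : n = 1 := by
  have h' : n ∣ 7 * 19 := h
  obtain ⟨a, b, ha, hb, rfl⟩ := Nat.dvd_mul.mp h'
  rcases (Nat.dvd_prime (by norm_num)).mp ha with rfl | rfl <;>
  rcases (Nat.dvd_prime (by norm_num)).mp hb with rfl | rfl <;> omega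

theorem no_simple_58520 {G : Type*} [Group G] [Finite G] [IsSimpleGroup G]
    (h : Nat.card G = 58520) : False := by
  classical
  have hnp : ¬ (Nat.card G).Prime := by rw [h]; norm_num
  have hG : ¬ IsMulCommutative G := not_comm_of_not_prime hnp
  have hp2 : Fact (Nat.Prime 2) := ⟨by norm_num⟩
  have hp5 : Fact (Nat.Prime 5) := ⟨by norm_num⟩
  have hp7 : Fact (Nat.Prime 7) := ⟨by norm_num⟩
  have hp11 : Fact (Nat.Prime 11) := ⟨by norm_num⟩
  have hp19 : Fact (Nat.Prime 19) := ⟨by norm_num⟩
  -- general Sylow data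
  have S5 := fun Q : Sylow 5 G => simple_sylow_facts hG (p := 5) (k := 1) (m := 11704)
    (by rw [h]; norm_num) (by norm_num) one_ne_zero Q
  have S11 := fun Q : Sylow 11 G => simple_sylow_facts hG (p := 11) (k := 1) (m := 5320)
    (by rw [h]; norm_num) (by norm_num) one_ne_zero Q
  have S19 := fun Q : Sylow 19 G => simple_sylow_facts hG (p := 19) (k := 1) (m := 3080)
    (by rw [h]; norm_num) (by norm_num) one_ne_zero Q
  have c5 : ∀ Q : Sylow 5 G, Nat.card (Q : Subgroup G) = 5 := fun Q => by
    simpa using (S5 Q).1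
  have c11 : ∀ Q : Sylow 11 G, Nat.card (Q : Subgroup G) = 11 := fun Q => by
    simpa using (S11 Q).1
  have c19 : ∀ Q : Sylow 19 G, Nat.card (Q : Subgroup G) = 19 := fun Q => by
    simpa using (S19 Q).1
  obtain ⟨P⟩ : Nonempty (Sylow 11 G) := inferInstance
  obtain ⟨-, -, -, hdvd, hmod, hne, -, hNn, -⟩ := S11 P
  have hP := c11 P
  obtain ⟨e, he, he1, hediv, -⟩ := simple_sylow_prime_card_NC hG P hP
  have hCN := card_centralizer_mul_relIndex_normalizer (P : Subgroup G)
  rw [← he] at hCN
  have hPC : (P : Subgroup G) ≤ centralizer ((P : Subgroup G) : Set G) :=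
    le_centralizer_of_card_prime _ 11 hP
  have he10 : e ≤ 10 := Nat.le_of_dvd (by norm_num) hediv
  rcases cases_5320 hdvd hmod hne with h56 | h133 | h760
  · -- `n_11 = 56`
    have hN : Nat.card (normalizer ((P : Subgroup G) : Set G)) = 1045 := by
      rw [h56, h] at hNn; omega
    have hC : Nat.card (centralizer ((P : Subgroup G) : Set G)) = 209 := by
      rw [hN] at hCN
      interval_cases e <;> omega
    -- an element of order 19 centralizing `P`
    obtain ⟨z, hzC, hz⟩ := exists_mem_orderOf_eq_prime
      (centralizer ((P : Subgroup G) : Set G)) 19 (by rw [hC]; norm_num)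
    obtain ⟨R, hR⟩ := exists_sylow_eq_zpowers 19 c19 z hz
    have hPR : (P : Subgroup G) ≤ centralizer ((R : Subgroup G) : Set G) := by
      rw [hR]
      apply le_centralizer_zpowers
      intro x hx
      rw [Subgroup.mem_centralizer_iff] at hzC
      exact hzC x hx
    obtain ⟨-, -, -, hdvd', hmod', hne', -, hNn', -⟩ := S19 R
    obtain ⟨e', he', he1', hediv', -⟩ := simple_sylow_prime_card_NC hG R (c19 R)
    have hCN' := card_centralizer_mul_relIndex_normalizer (R : Subgroup G)
    rw [← he'] at hCN'
    have h11 : 11 ∣ Nat.card (centralizer ((R : Subgroup G) : Set G)) := by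
      have := Subgroup.card_dvd_of_le hPR
      rwa [hP] at this
    have he18 : e' ≤ 18 := Nat.le_of_dvd (by norm_num) hediv'
    have hCR : Nat.card (centralizer ((R : Subgroup G) : Set G)) = 1463 := by
      obtain ⟨k, hk⟩ := h11
      rw [hk] at hCN'
      rcases cases_3080 hdvd' hmod' hne' with h20 | h77 | h1540
      · rw [h20, h] at hNn'
        have hN' : Nat.card (normalizer ((R : Subgroup G) : Set G)) = 2926 := by omega
        rw [hN'] at hCN'
        rw [hk]
        have hd18 : e' ∣ 18 := hediv'
        interval_cases e' <;> omega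
      · rw [h77, h] at hNn'
        have hN' : Nat.card (normalizer ((R : Subgroup G) : Set G)) = 760 := by omega
        rw [hN'] at hCN'
        exfalso
        have : (11 : ℕ) ∣ 760 := ⟨k * e', by rw [← hCN']; ring⟩
        omega
      · rw [h1540, h] at hNn'
        have hN' : Nat.card (normalizer ((R : Subgroup G) : Set G)) = 38 := by omega
        rw [hN'] at hCN'
        exfalso
        have : (11 : ℕ) ∣ 38 := ⟨k * e', by rw [← hCN']; ring⟩
        omega
    -- the unique Sylow 7-subgroup of `C(R)`
    set CR : Subgroup G := centralizer ((R : Subgroup G) : Set G) with hCRdef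
    obtain ⟨S⟩ : Nonempty (Sylow 7 CR) := inferInstance
    have hn7 : Nat.card (Sylow 7 CR) = 1 := by
      have h1 : Nat.card (Sylow 7 CR) ∣ 209 := by
        have hidx := S.card_dvd_index
        have hSc : Nat.card (S : Subgroup CR) = 7 := by
          have := sylow_card_of_card_eq (G := CR) (p := 7) (k := 1) (m := 209)
            (by rw [hCR]; norm_num) (by norm_num) S
          simpa using this
        have hi : (S : Subgroup CR).index = 209 := by
          have := Subgroup.card_mul_index (S : Subgroup CR)
          rw [hSc, hCR] at this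
          omega
        rwa [hi] at hidx
      have h2 : Nat.card (Sylow 7 CR) % 7 = 1 := by
        have := card_sylow_modEq_one 7 CR
        exact this
      exact cases_209 h1 h2
    set Y : Subgroup G := (S : Subgroup CR).map CR.subtype with hY
    have hYc : Nat.card Y = 7 := by
      rw [hY, Subgroup.card_subtype]
      have := sylow_card_of_card_eq (G := CR) (p := 7) (k := 1) (m := 209)
        (by rw [hCR]; norm_num) (by norm_num) S
      simpa using this
    have hCRY : CR ≤ normalizer (Y : Set G) :=
      le_normalizer_of_card_sylow_eq_one CR CR (fun g hg x hx => mul_mem (mul_mem hg hx)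
        (inv_mem hg)) 7 hn7 S
    -- an element of order 11 of `P` centralizes `Y`
    obtain ⟨x, hxP, hx⟩ := exists_mem_orderOf_eq_prime (P : Subgroup G) 11 (by rw [hP])
    have hxY : ∀ t ∈ Y, x * t = t * x := by
      apply centralizes_of_normalizes 11 x hx Y (hCRY (hPR hxP))
      intro d hd hd'
      rw [hYc] at hd hd' ⊢
      rcases (Nat.dvd_prime (by norm_num)).mp hd with rfl | rfl <;> omega
    -- so `Y ≤ C(P)`
    obtain ⟨y, hyY, hy⟩ := exists_mem_orderOf_eq_prime Y 7 (by rw [hYc])
    have hPx : (P : Subgroup G) = zpowers x := by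
      symm
      apply Subgroup.eq_of_le_of_card_ge
      · rw [Subgroup.zpowers_le]; exact hxP
      · rw [hP, Nat.card_zpowers, hx]
    have hyC : y ∈ centralizer ((P : Subgroup G) : Set G) := by
      rw [hPx]
      have := le_centralizer_zpowers (zpowers y) x (by
        intro w hw
        obtain ⟨k, rfl⟩ := Subgroup.mem_zpowers_iff.mp hw
        exact ((Commute.zpow_left (show Commute y x from (hxY y hyY).symm) k)).eq)
      exact this (mem_zpowers y)
    have h7 : 7 ∣ Nat.card (centralizer ((P : Subgroup G) : Set G)) := by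
      have := orderOf_dvd_card_of_mem _ y hyC
      rwa [hy] at this
    rw [hC] at h7
    omega
  · -- `n_11 = 133`
    have hN : Nat.card (normalizer ((P : Subgroup G) : Set G)) = 440 := by
      rw [h133, h] at hNn; omega
    rw [hN] at hCN
    set C : Subgroup G := centralizer ((P : Subgroup G) : Set G) with hCdef
    have hnormC : ∀ g ∈ normalizer ((P : Subgroup G) : Set G), ∀ x ∈ C, g * x * g⁻¹ ∈ C :=
      normalizer_conj_centralizer (P : Subgroup G)
    have hcases : e = 2 ∨ e = 5 ∨ e = 10 := by
      have hd10 : e ∣ 10 := hediv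
      interval_cases e <;> omega
    rcases hcases with rfl | he510
    · -- `e = 2`, `|C(P)| = 220`
      have hC : Nat.card C = 220 := by omega
      obtain ⟨S⟩ : Nonempty (Sylow 5 C) := inferInstance
      have hSc : Nat.card (S : Subgroup C) = 5 := by
        have := sylow_card_of_card_eq (G := C) (p := 5) (k := 1) (m := 44)
          (by rw [hC]; norm_num) (by norm_num) S
        simpa using this
      have hn5 : Nat.card (Sylow 5 C) = 1 := by
        have h1 := card_dvd_card_normalizer_in_centralizer (P : Subgroup G) hPC (S : Subgroup C)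
        rw [hP] at h1
        obtain ⟨k, hk⟩ := h1
        have h2 : Nat.card (normalizer ((S : Subgroup C) : Set C)) * Nat.card (Sylow 5 C)
            = Nat.card C := by
          rw [S.card_eq_index_normalizer]
          exact Subgroup.card_mul_index _
        rw [hk, hC] at h2
        have h3 : Nat.card (Sylow 5 C) ∣ 20 := ⟨k, by nlinarith⟩
        have h4 : Nat.card (Sylow 5 C) % 5 = 1 := card_sylow_modEq_one 5 C
        have h5 := Nat.le_of_dvd (by norm_num) h3
        generalize Nat.card (Sylow 5 C) = n at h3 h4 h5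
        interval_cases n <;> omega
      set F : Subgroup G := (S : Subgroup C).map C.subtype with hF
      have hFc : Nat.card F = 5 := by rw [hF, Subgroup.card_subtype, hSc]
      have hNF : normalizer ((P : Subgroup G) : Set G) ≤ normalizer (F : Set G) :=
        le_normalizer_of_card_sylow_eq_one C _ hnormC 5 hn5 S
      -- `F` is a Sylow 5-subgroup of `G`
      have hFpg : IsPGroup 5 F := IsPGroup.of_card (n := 1) (by rw [hFc, pow_one])
      obtain ⟨F5, hF5⟩ := hFpg.exists_le_sylow
      have hFeq : F = (F5 : Subgroup G) :=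
        Subgroup.eq_of_le_of_card_ge hF5 (by rw [c5 F5, hFc])
      obtain ⟨-, -, -, hdvd5, hmod5, hne5, -, hNn5, -⟩ := S5 F5
      rw [← hFeq] at hNn5
      have h440 := Subgroup.card_dvd_of_le hNF
      rw [hN] at h440
      obtain ⟨k, hk⟩ := h440
      rw [hk, h] at hNn5
      have h133' : Nat.card (Sylow 5 G) ∣ 133 := ⟨k, by nlinarith⟩
      exact hne5 (cases_133 h133' hmod5)
    · -- `e = 5` or `e = 10`, `|C(P)| = 88` or `44`
      have hC : Nat.card C = 88 ∨ Nat.card C = 44 := by
        rcases he510 with rfl | rfl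
        · left; omega
        · right; omega
      obtain ⟨S⟩ : Nonempty (Sylow 2 C) := inferInstance
      have hSc : Nat.card (S : Subgroup C) = 8 ∨ Nat.card (S : Subgroup C) = 4 := by
        rcases hC with hC | hC
        · left
          have := sylow_card_of_card_eq (G := C) (p := 2) (k := 3) (m := 11)
            (by rw [hC]; norm_num) (by norm_num) S
          simpa using this
        · right
          have := sylow_card_of_card_eq (G := C) (p := 2) (k := 2) (m := 11)
            (by rw [hC]; norm_num) (by norm_num) S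
          simpa using this
      have hn2 : Nat.card (Sylow 2 C) = 1 := by
        have h1 := card_dvd_card_normalizer_in_centralizer (P : Subgroup G) hPC (S : Subgroup C)
        rw [hP] at h1
        obtain ⟨k, hk⟩ := h1
        have h2 : Nat.card (normalizer ((S : Subgroup C) : Set C)) * Nat.card (Sylow 2 C)
            = Nat.card C := by
          rw [S.card_eq_index_normalizer]
          exact Subgroup.card_mul_index _
        rw [hk] at h2
        have h3 : Nat.card (Sylow 2 C) ∣ 8 := by
          rcases hC with hC | hC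
          · rw [hC] at h2; exact ⟨k, by nlinarith⟩
          · rw [hC] at h2; exact Dvd.dvd.trans ⟨k, by nlinarith⟩ (by norm_num : (4 : ℕ) ∣ 8)
        have h4 : Nat.card (Sylow 2 C) % 2 = 1 := card_sylow_modEq_one 2 C
        rcases dvd_eight h3 with h5 | h5 | h5 | h5 <;> omega
      set T : Subgroup G := (S : Subgroup C).map C.subtype with hT
      have hTc : Nat.card T = 8 ∨ Nat.card T = 4 := by
        rw [hT, Subgroup.card_subtype]; exact hSc
      have hNT : normalizer ((P : Subgroup G) : Set G) ≤ normalizer (T : Set G) :=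
        le_normalizer_of_card_sylow_eq_one C _ hnormC 2 hn2 S
      -- an element of order 5 in `N(P)`
      obtain ⟨f, hfN, hf⟩ := exists_mem_orderOf_eq_prime
        (normalizer ((P : Subgroup G) : Set G)) 5 (by rw [hN]; norm_num)
      have hfT : ∀ t ∈ T, f * t = t * f := by
        apply centralizes_of_normalizes 5 f hf T (hNT hfN)
        intro d hd hd'
        rcases hTc with hTc | hTc
        · rw [hTc] at hd hd' ⊢
          rcases dvd_eight hd with rfl | rfl | rfl | rfl <;> omega
        · rw [hTc] at hd hd' ⊢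
          rcases dvd_four hd with rfl | rfl | rfl <;> omega
      obtain ⟨F5, hF5⟩ := exists_sylow_eq_zpowers 5 c5 f hf
      have hTF : T ≤ centralizer ((F5 : Subgroup G) : Set G) := by
        rw [hF5]
        apply le_centralizer_zpowers
        intro t ht
        exact (hfT t ht).symm
      have hTd := Subgroup.card_dvd_of_le hTF
      obtain ⟨-, -, -, hdvd5, hmod5, hne5, hfac5, hNn5, -⟩ := S5 F5
      obtain ⟨e5, he5, he51, he5div, -⟩ := simple_sylow_prime_card_NC hG F5 (c5 F5)
      have hCN5 := card_centralizer_mul_relIndex_normalizer (F5 : Subgroup G)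
      rw [← he5] at hCN5
      have he54 : e5 = 2 ∨ e5 = 4 := by
        have hd4 : e5 ∣ 4 := he5div
        rcases dvd_four hd4 with rfl | rfl | rfl
        · exact absurd rfl he51
        · left; rfl
        · right; rfl
      -- `8 ∣ |N(F5)|`
      have h8 : 8 ∣ Nat.card (normalizer ((F5 : Subgroup G) : Set G)) := by
        rw [← hCN5]
        rcases hTc with hTc | hTc
        · rw [hTc] at hTd
          exact Dvd.dvd.mul_right hTd _
        · rw [hTc] at hTd
          obtain ⟨k, hk⟩ := hTd
          rw [hk]
          rcases he54 with rfl | rfl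
          · exact ⟨k, by ring⟩
          · exact ⟨2 * k, by ring⟩
      obtain ⟨k, hk⟩ := h8
      rw [hk, h] at hNn5
      rcases cases_11704 hdvd5 hmod5 hne5 with h5 | h5 | h5 | h5 | h5 | h5 | h5
      · rw [h5, h] at hfac5
        revert hfac5
        decide
      all_goals
        rw [h5] at hNn5
        omega
  · -- `n_11 = 760`
    have hN : Nat.card (normalizer ((P : Subgroup G) : Set G)) = 77 := by
      rw [h760, h] at hNn; omega
    rw [hN] at hCN
    have hd10 : e ∣ 10 := hediv
    interval_cases e <;> omega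

end Cfsg.Agent.H59.Ord175560
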