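import Mathlib

/-!
# Abstract core of SQ-COMM (S2945, for helper42)

Two automorphisms `x, y` of order 3 of a finite elementary abelian 2-group `E`, lying in a common
3-subgroup of `MulAut E`, whose commutator subgroups `{v * x v}`, `{v * y v}` have order 4,
commute.
-/

set_option autoImplicit false

namespace Cfsg.Agent.H59.Sq

universe u

section basic
variable {E : Type u} [CommGroup E]

/-- The commutator homomorphism `v ↦ v * x v` (in exponent 2 this is `v ↦ v * (x v)⁻¹`). -/
def cmHom (x : MulAut E) : E →* E where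
  toFun v := v * x v
  map_one' := by simp
  map_mul' a b := by rw [map_mul]; exact mul_mul_mul_comm a b (x a) (x b)

/-- The commutator subgroup `[E, x]`. -/
def cmS (x : MulAut E) : Subgroup E := (cmHom x).range

theorem mem_cmS {x : MulAut E} {w : E} : w ∈ cmS x ↔ ∃ v, v * x v = w := Iff.rfl

theorem cm_mem (x : MulAut E) (v : E) : v * x v ∈ cmS x := ⟨v, rfl⟩

theorem cmS_map {x y : MulAut E} (hc : ∀ v, x (y v) = y (x v)) {w : E} (hw : w ∈ cmS x) :
    y w ∈ cmS x := by
  obtain ⟨u, rfl⟩ := hw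
  refine ⟨y u, ?_⟩
  show y u * x (y u) = y (u * x u)
  rw [map_mul, hc]

theorem cmS_map_self {x : MulAut E} {w : E} (hw : w ∈ cmS x) : x w ∈ cmS x :=
  cmS_map (fun _ => rfl) hw

/-- `x` has no nontrivial fixed point on `[E, x]`. -/
theorem fpf (hE : ∀ e : E, e * e = 1) {x : MulAut E} (h3 : ∀ v, x (x (x v)) = v) {w : E}
    (hw : w ∈ cmS x) (hfix : x w = w) : w = 1 := by
  obtain ⟨u, rfl⟩ := hw
  have h : x u * x (x u) = u * x u := by
    have := hfix
    rwa [show x (cmHom x u) = x u * x (x u) from map_mul x u (x u)] at this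
  have h2 : x (x u) = u := by
    rw [mul_comm u (x u)] at h
    exact mul_left_cancel h
  have h4 : x u = u := by
    have := h3 u
    rwa [h2] at this
  show u * x u = 1
  rw [h4]; exact hE u

/-- If `y` agrees with `X` on a subgroup `W` containing both commutators and `X` is fixed-point
free on `W`, then `y = X`. -/
theorem eq_of_agree (hE : ∀ e : E, e * e = 1) (X y : MulAut E) (hc : ∀ v, X (y v) = y (X v))
    (W : Subgroup E) (h1 : ∀ w ∈ W, y w = X w) (h2 : ∀ v, v * X v ∈ W) (h3 : ∀ v, v * y v ∈ W)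
    (h4 : ∀ w ∈ W, X w = w → w = 1) : ∀ v, y v = X v := by
  intro v
  obtain ⟨c, hcW, hXv⟩ : ∃ c ∈ W, X v = v * c :=
    ⟨v * X v, h2 v, by rw [← mul_assoc, hE v, one_mul]⟩
  obtain ⟨c', hc'W, hyv⟩ : ∃ c' ∈ W, y v = v * c' :=
    ⟨v * y v, h3 v, by rw [← mul_assoc, hE v, one_mul]⟩
  have e1 : X (y v) = v * c * X c' := by rw [hyv, map_mul, hXv]
  have e2 : y (X v) = v * c' * X c := by rw [hXv, map_mul, hyv, h1 c hcW]
  have e3 : c * X c' = c' * X c := by
    have := hc v
    rw [e1, e2, mul_assoc, mul_assoc] at this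
    exact mul_left_cancel this
  have key : X (c * c') = c * c' := by
    rw [map_mul]
    have h5 : (c * c') * (X c * X c') = 1 := by
      calc (c * c') * (X c * X c') = (c * X c') * (c' * X c) := by ac_rfl
        _ = (c * X c') * (c * X c') := by rw [← e3]
        _ = 1 := hE _
    have h6 : X c * X c' = (c * c')⁻¹ := eq_inv_of_mul_eq_one_right h5
    rw [h6]
    exact inv_eq_of_mul_eq_one_right (hE _)
  have h7 := h4 (c * c') (W.mul_mem hcW hc'W) key
  have h8 : c' = c := by
    have : c' = c⁻¹ := eq_inv_of_mul_eq_one_right h7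
    rw [this]; exact inv_eq_of_mul_eq_one_right (hE c)
  rw [hyv, hXv, h8]

/-- In a set with exactly four elements, any element is one of four given distinct elements. -/
theorem mem_four {α : Type u} {S : Set α} [Finite α] (h : Nat.card ↥S = 4) {a b c d : α}
    (ha : a ∈ S) (hb : b ∈ S) (hc : c ∈ S) (hd : d ∈ S)
    (hab : a ≠ b) (hac : a ≠ c) (had : a ≠ d) (hbc : b ≠ c) (hbd : b ≠ d) (hcd : c ≠ d)
    {q : α} (hq : q ∈ S) : q = a ∨ q = b ∨ q = c ∨ q = d := by
  have h4 : ({a, b, c, d} : Set α).ncard = 4 := by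
    rw [Set.ncard_insert_of_notMem, Set.ncard_insert_of_notMem, Set.ncard_pair hcd]
    · simp [hbc, hbd]
    · simp [hab, hac, had]
  have hsub : ({a, b, c, d} : Set α) ⊆ S := by
    intro t ht
    simp only [Set.mem_insert_iff, Set.mem_singleton_iff] at ht
    rcases ht with rfl | rfl | rfl | rfl <;> assumption
  have hS : S.ncard = 4 := by rw [← Nat.card_coe_set_eq]; exact h
  have heq : ({a, b, c, d} : Set α) = S :=
    Set.eq_of_subset_of_ncard_le hsub (by rw [hS, h4]) (Set.toFinite S)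
  rw [← heq] at hq
  simpa using hq

variable [Finite E]

/-- Commuting automorphisms of order 3 with commutators of order 4 meeting nontrivially generate
the same subgroup. -/
theorem eq_or_eq_sq (hE : ∀ e : E, e * e = 1) {x y : MulAut E}
    (hx3 : ∀ v, x (x (x v)) = v) (hy3 : ∀ v, y (y (y v)) = v) (hc : ∀ v, x (y v) = y (x v))
    (hWx : Nat.card ↥(cmS x) = 4) (hWy : Nat.card ↥(cmS y) = 4) {z : E}
    (hzx : z ∈ cmS x) (hzy : z ∈ cmS y) (hz1 : z ≠ 1) :
    (∀ v, y v = x v) ∨ (∀ v, y v = x (x v)) := by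
  have hc' : ∀ v, y (x v) = x (y v) := fun v => (hc v).symm
  have hxz : x z ∈ cmS x := cmS_map_self hzx
  have hxxz : x (x z) ∈ cmS x := cmS_map_self hxz
  have n1 : x z ≠ z := fun h => hz1 (fpf hE hx3 hzx h)
  have n2 : x z ≠ 1 := fun h => hz1 (by simpa using h)
  have n3 : x (x z) ≠ 1 := fun h => n2 (by simpa using h)
  have n4 : x (x z) ≠ z := by
    intro h
    apply n1
    have := hx3 z
    rw [h] at this
    exact this
  have n5 : x (x z) ≠ x z := fun h => n1 (x.injective h)
  have listx : ∀ q ∈ cmS x, q = 1 ∨ q = z ∨ q = x z ∨ q = x (x z) := fun q hq =>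
    mem_four (S := (cmS x : Set E)) hWx (one_mem _) hzx hxz hxxz (Ne.symm hz1) (Ne.symm n2)
      (Ne.symm n3) (Ne.symm n1) (Ne.symm n4) (Ne.symm n5) hq
  have hyz' : y z ∈ cmS y := cmS_map_self hzy
  have hyyz' : y (y z) ∈ cmS y := cmS_map_self hyz'
  have m1 : y z ≠ z := fun h => hz1 (fpf hE hy3 hzy h)
  have m2 : y z ≠ 1 := fun h => hz1 (by simpa using h)
  have m3 : y (y z) ≠ 1 := fun h => m2 (by simpa using h)
  have m4 : y (y z) ≠ z := by
    intro h
    apply m1
    have := hy3 z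
    rw [h] at this
    exact this
  have m5 : y (y z) ≠ y z := fun h => m1 (y.injective h)
  have listy : ∀ q ∈ cmS y, q = 1 ∨ q = z ∨ q = y z ∨ q = y (y z) := fun q hq =>
    mem_four (S := (cmS y : Set E)) hWy (one_mem _) hzy hyz' hyyz' (Ne.symm hz1) (Ne.symm m2)
      (Ne.symm m3) (Ne.symm m1) (Ne.symm m4) (Ne.symm m5) hq
  have hyz : y z ∈ cmS x := cmS_map hc hzx
  rcases listx (y z) hyz with h | h | h | h
  · exact absurd h m2
  · exact absurd h m1
  · left
    refine eq_of_agree hE x y hc (cmS x) ?_ (cm_mem x) ?_ (fun w hw hf => fpf hE hx3 hw hf)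
    · intro w hw
      rcases listx w hw with e | e | e | e
      · rw [e]; simp
      · rw [e]; exact h
      · rw [e, hc', h]
      · rw [e, hc', hc', h]
    · intro v
      rcases listy _ (cm_mem y v) with e | e | e | e
      · rw [e]; exact one_mem _
      · rw [e]; exact hzx
      · rw [e, h]; exact hxz
      · rw [e, h, hc', h]; exact hxxz
  · right
    have key := eq_of_agree hE (x * x) y (by
        intro v
        simp only [MulAut.mul_apply]
        rw [hc, hc]) (cmS x) (by
        intro w hw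
        simp only [MulAut.mul_apply]
        rcases listx w hw with e | e | e | e
        · rw [e]; simp
        · rw [e]; exact h
        · rw [e, hc', h]
        · rw [e, hc', hc', h]) (by
        intro v
        simp only [MulAut.mul_apply]
        have e : v * x (x v) = (v * x v) * (x v * x (x v)) := by
          calc v * x (x v) = v * ((x v * x v) * x (x v)) := by rw [hE, one_mul]
            _ = (v * x v) * (x v * x (x v)) := by ac_rfl
        rw [e]
        exact mul_mem (cm_mem x v) (cm_mem x (x v))) (by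
        intro v
        rcases listy _ (cm_mem y v) with e | e | e | e
        · rw [e]; exact one_mem _
        · rw [e]; exact hzx
        · rw [e, h]; exact hxxz
        · rw [e, h, hc', hc', h, hx3 (x z)]; exact hxz) (by
        intro w hw hf
        simp only [MulAut.mul_apply] at hf
        apply fpf hE hx3 hw
        have := hx3 w
        rw [hf] at this
        exact this)
    intro v
    exact key v

/-- Commuting automorphisms of order 3 with commutators of order 4 generating different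
subgroups: each centralizes the commutator of the other. -/
theorem orth (hE : ∀ e : E, e * e = 1) {x y : MulAut E}
    (hx3 : ∀ v, x (x (x v)) = v) (hy3 : ∀ v, y (y (y v)) = v) (hc : ∀ v, x (y v) = y (x v))
    (hWx : Nat.card ↥(cmS x) = 4) (hWy : Nat.card ↥(cmS y) = 4)
    (hne1 : y ≠ x) (hne2 : y ≠ x * x) : ∀ w ∈ cmS y, x w = w := by
  intro w hw
  have hc' : ∀ v, y (x v) = x (y v) := fun v => (hc v).symm
  have h1 : w * x w ∈ cmS x := cm_mem x w
  have h2 : w * x w ∈ cmS y := mul_mem hw (cmS_map hc' hw)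
  by_cases h : w * x w = 1
  · have : x w = w⁻¹ := eq_inv_of_mul_eq_one_right h
    rw [this]; exact inv_eq_of_mul_eq_one_right (hE w)
  · exfalso
    rcases eq_or_eq_sq hE hx3 hy3 hc hWx hWy h1 h2 h with e | e
    · exact hne1 (MulEquiv.ext e)
    · exact hne2 (MulEquiv.ext e)

/-- Pointwise form of `x ^ 3 = 1`. -/
theorem pow3_apply {x : MulAut E} (h : x ^ 3 = 1) (v : E) : x (x (x v)) = v := by
  have := congrArg (fun f : MulAut E => f v) h
  simpa [pow_succ, MulAut.mul_apply] using this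

/-- Pointwise form of commutation. -/
theorem comm_apply {x y : MulAut E} (h : x * y = y * x) (v : E) : x (y v) = y (x v) := by
  have := congrArg (fun f : MulAut E => f v) h
  simpa [MulAut.mul_apply] using this

/-- The commutator subgroup of a conjugate. -/
theorem cmS_conj (g x : MulAut E) : cmS (g * x * g⁻¹) = (cmS x).map g.toMonoidHom := by
  ext w
  constructor
  · rintro ⟨v, rfl⟩
    refine ⟨g⁻¹ v * x (g⁻¹ v), cm_mem x _, ?_⟩
    show g (g⁻¹ v * x (g⁻¹ v)) = v * (g * x * g⁻¹) v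
    rw [map_mul]
    simp [MulAut.mul_apply]
  · rintro ⟨_, ⟨u, rfl⟩, rfl⟩
    refine ⟨g u, ?_⟩
    show g u * (g * x * g⁻¹) (g u) = g (u * x u)
    rw [map_mul]
    simp [MulAut.mul_apply]

/-- Three independent subgroups inside `U`. -/
theorem card_three (A B C U : Subgroup E) (hA : A ≤ U) (hB : B ≤ U) (hC : C ≤ U)
    (indep : ∀ a ∈ A, ∀ b ∈ B, ∀ c ∈ C, a * b * c = 1 → a = 1 ∧ b = 1 ∧ c = 1) :
    Nat.card ↥A * (Nat.card ↥B * Nat.card ↥C) ≤ Nat.card ↥U := by
  let f : ↥A × ↥B × ↥C → ↥U := fun p =>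
    ⟨(p.1 : E) * (p.2.1 : E) * (p.2.2 : E),
      U.mul_mem (U.mul_mem (hA p.1.2) (hB p.2.1.2)) (hC p.2.2.2)⟩
  have hf : Function.Injective f := by
    rintro ⟨a, b, c⟩ ⟨a', b', c'⟩ h
    have h' : (a : E) * (b : E) * (c : E) = (a' : E) * (b' : E) * (c' : E) :=
      congrArg Subtype.val h
    have h1 : ((a : E) * (a' : E)⁻¹) * ((b : E) * (b' : E)⁻¹) * ((c : E) * (c' : E)⁻¹) = 1 := by
      calc ((a : E) * (a' : E)⁻¹) * ((b : E) * (b' : E)⁻¹) * ((c : E) * (c' : E)⁻¹)
          = ((a : E) * (b : E) * (c : E)) * ((a' : E) * (b' : E) * (c' : E))⁻¹ := by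
            rw [mul_inv, mul_inv]; ac_rfl
        _ = 1 := by rw [h', mul_inv_cancel]
    obtain ⟨e1, e2, e3⟩ := indep _ (A.mul_mem a.2 (A.inv_mem a'.2)) _
      (B.mul_mem b.2 (B.inv_mem b'.2)) _ (C.mul_mem c.2 (C.inv_mem c'.2)) h1
    have ea : a = a' := Subtype.ext (mul_inv_eq_one.mp e1)
    have eb : b = b' := Subtype.ext (mul_inv_eq_one.mp e2)
    have ec : c = c' := Subtype.ext (mul_inv_eq_one.mp e3)
    rw [ea, eb, ec]
  have := Nat.card_le_card_of_injective f hf
  rwa [Nat.card_prod, Nat.card_prod] at this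

/-- The product of two subgroups of order 4 has order at most 16. -/
theorem card_sup_le (A B : Subgroup E) (hA : Nat.card ↥A = 4) (hB : Nat.card ↥B = 4) :
    Nat.card ↥(A ⊔ B) ≤ 16 := by
  let f : ↥A × ↥B → ↥(A ⊔ B) := fun p =>
    ⟨(p.1 : E) * (p.2 : E), Subgroup.mul_mem_sup p.1.2 p.2.2⟩
  have hf : Function.Surjective f := by
    rintro ⟨u, hu⟩
    obtain ⟨a, ha, b, hb, rfl⟩ := Subgroup.mem_sup.mp hu
    exact ⟨(⟨a, ha⟩, ⟨b, hb⟩), rfl⟩
  have := Nat.card_le_card_of_surjective f hf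
  rwa [Nat.card_prod, hA, hB] at this

/-- Both directions of `orth`. -/
theorem orth2 (hE : ∀ e : E, e * e = 1) {x y : MulAut E} (hx3 : x ^ 3 = 1) (hy3 : y ^ 3 = 1)
    (hc : x * y = y * x) (hWx : Nat.card ↥(cmS x) = 4) (hWy : Nat.card ↥(cmS y) = 4)
    (hne1 : y ≠ x) (hne2 : y ≠ x * x) :
    (∀ w ∈ cmS y, x w = w) ∧ (∀ w ∈ cmS x, y w = w) := by
  refine ⟨orth hE (pow3_apply hx3) (pow3_apply hy3) (comm_apply hc) hWx hWy hne1 hne2,
    orth hE (pow3_apply hy3) (pow3_apply hx3) (comm_apply hc.symm) hWy hWx (Ne.symm hne1) ?_⟩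
  intro h
  apply hne2
  have : x * x = y * y * (y * y) := by rw [← h]
  rw [this]
  have h3 : y * y * y = 1 := by rw [← hy3]; simp [pow_succ]
  calc y = y * y * y * y := by rw [h3, one_mul]
    _ = y * y * (y * y) := by simp only [mul_assoc]

/-- No three pairwise commuting conjugates generating different subgroups. -/
theorem three_conj_false (hE : ∀ e : E, e * e = 1) (x y g : MulAut E) (hx3 : x ^ 3 = 1)
    (hWx : Nat.card ↥(cmS x) = 4) (hWy : Nat.card ↥(cmS y) = 4)
    (hgU : ∀ u ∈ cmS x ⊔ cmS y, g u ∈ cmS x ⊔ cmS y)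
    (c01 : x * (g * x * g⁻¹) = (g * x * g⁻¹) * x)
    (c02 : x * (g * (g * x * g⁻¹) * g⁻¹) = (g * (g * x * g⁻¹) * g⁻¹) * x)
    (d01a : g * x * g⁻¹ ≠ x) (d01b : g * x * g⁻¹ ≠ x * x)
    (d02a : g * (g * x * g⁻¹) * g⁻¹ ≠ x) (d02b : g * (g * x * g⁻¹) * g⁻¹ ≠ x * x) : False := by
  obtain ⟨x₁, hx₁⟩ : ∃ t, t = g * x * g⁻¹ := ⟨_, rfl⟩
  obtain ⟨x₂, hx₂⟩ : ∃ t, t = g * x₁ * g⁻¹ := ⟨_, rfl⟩
  rw [← hx₁] at c01 c02 d01a d01b d02a d02b
  rw [← hx₂] at c02 d02a d02b
  have hx₁3 : x₁ ^ 3 = 1 := by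
    rw [hx₁]
    have : (g * x * g⁻¹) ^ 3 = g * x ^ 3 * g⁻¹ := by simp only [pow_succ, pow_zero]; group
    rw [this, hx3]; group
  have hx₂3 : x₂ ^ 3 = 1 := by
    rw [hx₂]
    have : (g * x₁ * g⁻¹) ^ 3 = g * x₁ ^ 3 * g⁻¹ := by simp only [pow_succ, pow_zero]; group
    rw [this, hx₁3]; group
  have hW₁ : Nat.card ↥(cmS x₁) = 4 := by
    rw [hx₁, cmS_conj, Subgroup.card_map_of_injective g.injective]; exact hWx
  have hW₂ : Nat.card ↥(cmS x₂) = 4 := by
    rw [hx₂, cmS_conj, Subgroup.card_map_of_injective g.injective]; exact hW₁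
  have c12 : x₁ * x₂ = x₂ * x₁ := by
    calc x₁ * x₂ = g * (x * x₁) * g⁻¹ := by rw [hx₂, hx₁]; group
      _ = g * (x₁ * x) * g⁻¹ := by rw [c01]
      _ = x₂ * x₁ := by rw [hx₂]; nth_rewrite 3 [hx₁]; group
  have d12a : x₂ ≠ x₁ := by
    intro h
    apply d01a
    rw [hx₂] at h
    nth_rewrite 2 [hx₁] at h
    exact mul_left_cancel (mul_right_cancel h)
  have d12b : x₂ ≠ x₁ * x₁ := by
    intro h
    apply d01b
    have e : x₁ * x₁ = g * (x * x) * g⁻¹ := by rw [hx₁]; group
    rw [hx₂, e] at h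
    exact mul_left_cancel (mul_right_cancel h)
  obtain ⟨f01, f10⟩ := orth2 hE hx3 hx₁3 c01 hWx hW₁ d01a d01b
  obtain ⟨f02, f20⟩ := orth2 hE hx3 hx₂3 c02 hWx hW₂ d02a d02b
  obtain ⟨f12, f21⟩ := orth2 hE hx₁3 hx₂3 c12 hW₁ hW₂ d12a d12b
  have hA : cmS x ≤ cmS x ⊔ cmS y := le_sup_left
  have hB : cmS x₁ ≤ cmS x ⊔ cmS y := by
    rw [hx₁, cmS_conj]
    rintro _ ⟨w, hw, rfl⟩
    exact hgU w (hA hw)
  have hC : cmS x₂ ≤ cmS x ⊔ cmS y := by
    rw [hx₂, cmS_conj]
    rintro _ ⟨w, hw, rfl⟩
    exact hgU w (hB hw)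
  have key := card_three (cmS x) (cmS x₁) (cmS x₂) (cmS x ⊔ cmS y) hA hB hC (by
    intro a ha b hb c hc habc
    have ha1 : a = 1 := by
      apply fpf hE (pow3_apply hx3) ha
      have h1 : x a * b * c = 1 := by
        have := congrArg x habc
        rwa [map_mul, map_mul, map_one, f01 b hb, f02 c hc] at this
      have h2 : x a * (b * c) = a * (b * c) := by rw [← mul_assoc, ← mul_assoc, h1, habc]
      exact mul_right_cancel h2
    have hb1 : b = 1 := by
      apply fpf hE (pow3_apply hx₁3) hb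
      have h1 : a * x₁ b * c = 1 := by
        have := congrArg x₁ habc
        rwa [map_mul, map_mul, map_one, f10 a ha, f12 c hc] at this
      have h2 : x₁ b * (a * c) = b * (a * c) := by
        calc x₁ b * (a * c) = a * x₁ b * c := by ac_rfl
          _ = 1 := h1
          _ = a * b * c := habc.symm
          _ = b * (a * c) := by ac_rfl
      exact mul_right_cancel h2
    have hc1 : c = 1 := by
      apply fpf hE (pow3_apply hx₂3) hc
      have h1 : a * b * x₂ c = 1 := by
        have := congrArg x₂ habc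
        rwa [map_mul, map_mul, map_one, f20 a ha, f21 b hb] at this
      have h2 : a * b * x₂ c = a * b * c := by rw [h1, habc]
      exact mul_left_cancel h2
    exact ⟨ha1, hb1, hc1⟩)
  have hU := card_sup_le (cmS x) (cmS y) hWx hWy
  rw [hWx, hW₁, hW₂] at key
  omega

/-- The automorphisms preserving the subgroup `U`. -/
def stab (U : Subgroup E) : Subgroup (MulAut E) where
  carrier := {r | ∀ u, r u ∈ U ↔ u ∈ U}
  one_mem' := by intro u; simp
  mul_mem' := by
    intro r s hr hs u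
    rw [MulAut.mul_apply, hr, hs]
  inv_mem' := by
    intro r hr u
    have := hr (r⁻¹ u)
    rw [MulAut.apply_inv_self] at this
    exact this.symm

theorem x_mem_stab (hE : ∀ e : E, e * e = 1) {x y : MulAut E} (hx3 : x ^ 3 = 1) :
    x ∈ stab (cmS x ⊔ cmS y) := by
  have hfwd : ∀ u ∈ cmS x ⊔ cmS y, x u ∈ cmS x ⊔ cmS y := by
    intro u hu
    obtain ⟨a, ha, b, hb, rfl⟩ := Subgroup.mem_sup.mp hu
    rw [map_mul]
    have e : x a * x b = (x a * (b * x b)) * b := by
      calc x a * x b = x a * ((b * b) * x b) := by rw [hE b, one_mul]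
        _ = (x a * (b * x b)) * b := by ac_rfl
    rw [e]
    exact Subgroup.mul_mem_sup (mul_mem (cmS_map_self ha) (cm_mem x b)) hb
  intro u
  constructor
  · intro h
    have := hfwd _ (hfwd _ h)
    rwa [pow3_apply hx3] at this
  · exact hfwd u

/-- **Abstract core of SQ-COMM.**  Two automorphisms of order 3 of a finite elementary abelian
2-group, lying in a common 3-subgroup of the automorphism group, with commutators of order 4,
commute. -/
theorem aut_commute (hE : ∀ e : E, e * e = 1)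
    (P : Subgroup (MulAut E)) (hP : IsPGroup 3 ↥P) (x y : MulAut E) (hx : x ∈ P) (hy : y ∈ P)
    (hx3 : x ^ 3 = 1) (hy3 : y ^ 3 = 1)
    (hWx : Nat.card ↥(Set.range fun v : E => v * x v) = 4)
    (hWy : Nat.card ↥(Set.range fun v : E => v * y v) = 4) : x * y = y * x := by
  by_contra hxy
  have hWx' : Nat.card ↥(cmS x) = 4 := hWx
  have hWy' : Nat.card ↥(cmS y) = 4 := hWy
  have : Fact (Nat.Prime 3) := ⟨Nat.prime_three⟩
  obtain ⟨R, hRdef⟩ : ∃ R : Subgroup (MulAut E), R = Subgroup.closure {x, y} := ⟨_, rfl⟩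
  have hxR : x ∈ R := by rw [hRdef]; exact Subgroup.subset_closure (by simp)
  have hyR : y ∈ R := by rw [hRdef]; exact Subgroup.subset_closure (by simp)
  have hRP : R ≤ P := by
    rw [hRdef, Subgroup.closure_le]
    intro t ht
    simp only [Set.mem_insert_iff, Set.mem_singleton_iff] at ht
    rcases ht with h | h
    · rw [h]; exact hx
    · rw [h]; exact hy
  have hRstab : R ≤ stab (cmS x ⊔ cmS y) := by
    rw [hRdef, Subgroup.closure_le]
    intro t ht
    simp only [Set.mem_insert_iff, Set.mem_singleton_iff] at ht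
    rcases ht with h | h
    · rw [h]; exact x_mem_stab hE hx3
    · rw [h]
      have := x_mem_stab hE (x := y) (y := x) hy3
      rwa [sup_comm] at this
  have hR3 : IsPGroup 3 ↥R := hP.to_le hRP
  have hnil : Group.IsNilpotent ↥R := hR3.isNilpotent
  have hNC : NormalizerCondition ↥R := Group.normalizerCondition_of_isNilpotent
  have hodd : ∀ (D : Subgroup ↥R) (t : ↥R), t * t ∈ D → t ∈ D := by
    intro D t ht
    obtain ⟨k, hk⟩ := hR3 t
    obtain ⟨j, hj⟩ : Odd (3 ^ k) := Odd.pow (by decide)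
    rw [hj, pow_succ, pow_mul] at hk
    have h1 : t = ((t ^ 2) ^ j)⁻¹ := eq_inv_of_mul_eq_one_right hk
    rw [h1]
    apply D.inv_mem
    apply D.pow_mem
    rw [pow_two]; exact ht
  obtain ⟨x', hx'⟩ : ∃ t : ↥R, (t : MulAut E) = x := ⟨⟨x, hxR⟩, rfl⟩
  obtain ⟨y', hy'⟩ : ∃ t : ↥R, (t : MulAut E) = y := ⟨⟨y, hyR⟩, rfl⟩
  obtain ⟨D, hDdef⟩ : ∃ D : Subgroup ↥R, D = Subgroup.centralizer {x'} := ⟨_, rfl⟩
  have hDmem : ∀ t : ↥R, t ∈ D ↔ x' * t = t * x' := by
    intro t
    rw [hDdef, Subgroup.mem_centralizer_iff]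
    constructor
    · intro h; exact h x' rfl
    · intro h s hs
      rw [Set.mem_singleton_iff] at hs
      rw [hs]; exact h
  have hxD : x' ∈ D := (hDmem x').mpr rfl
  have hDtop : D < ⊤ := by
    rw [lt_top_iff_ne_top]
    intro h
    have h1 : y' ∈ D := by rw [h]; exact Subgroup.mem_top _
    have h2 := (hDmem y').mp h1
    apply hxy
    have := congrArg Subtype.val h2
    rw [Subgroup.coe_mul, Subgroup.coe_mul, hx', hy'] at this
    exact this
  obtain ⟨g, hgN, hgD⟩ := SetLike.exists_of_lt (hNC D hDtop)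
  have hx'3 : x' * x' * x' = 1 := by
    apply Subtype.ext
    rw [Subgroup.coe_mul, Subgroup.coe_mul, hx', Subgroup.coe_one, ← hx3]
    simp [pow_succ]
  have hL : ∀ t : ↥R, (t * x' * t⁻¹ = x' ∨ t * x' * t⁻¹ = x' * x') → t ∈ D := by
    intro t ht
    rcases ht with h | h
    · rw [hDmem]
      have : t * x' = x' * t := by
        calc t * x' = t * x' * t⁻¹ * t := by group
          _ = x' * t := by rw [h]
      exact this.symm
    · apply hodd
      rw [hDmem]
      have e : (t * t) * x' * (t * t)⁻¹ = x' := by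
        calc (t * t) * x' * (t * t)⁻¹ = t * (t * x' * t⁻¹) * t⁻¹ := by group
          _ = t * (x' * x') * t⁻¹ := by rw [h]
          _ = (t * x' * t⁻¹) * (t * x' * t⁻¹) := by group
          _ = (x' * x') * (x' * x') := by rw [h]
          _ = (x' * x' * x') * x' := by group
          _ = x' := by rw [hx'3, one_mul]
      calc x' * (t * t) = ((t * t) * x' * (t * t)⁻¹) * (t * t) := by rw [e]
        _ = (t * t) * x' := by group
  have hN := Subgroup.mem_normalizer_iff.mp hgN
  have h1D : g * x' * g⁻¹ ∈ D := (hN x').mp hxD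
  have h2D : g * (g * x' * g⁻¹) * g⁻¹ ∈ D := (hN _).mp h1D
  have hgg : g * g ∉ D := fun h => hgD (hodd D g h)
  refine three_conj_false hE x y (g : MulAut E) hx3 hWx' hWy' ?_ ?_ ?_ ?_ ?_ ?_ ?_
  · intro u hu
    exact ((hRstab g.2) u).mpr hu
  · have := congrArg Subtype.val ((hDmem _).mp h1D)
    simp only [Subgroup.coe_mul, Subgroup.coe_inv, hx'] at this
    exact this
  · have := congrArg Subtype.val ((hDmem _).mp h2D)
    simp only [Subgroup.coe_mul, Subgroup.coe_inv, hx'] at this
    exact this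
  · intro h
    apply hgD
    apply hL g
    left
    apply Subtype.ext
    simp only [Subgroup.coe_mul, Subgroup.coe_inv, hx']
    exact h
  · intro h
    apply hgD
    apply hL g
    right
    apply Subtype.ext
    simp only [Subgroup.coe_mul, Subgroup.coe_inv, hx']
    exact h
  · intro h
    apply hgg
    apply hL
    left
    apply Subtype.ext
    simp only [Subgroup.coe_mul, Subgroup.coe_inv, hx']
    calc (g : MulAut E) * (g : MulAut E) * x * ((g : MulAut E) * (g : MulAut E))⁻¹
        = (g : MulAut E) * ((g : MulAut E) * x * (g : MulAut E)⁻¹) * (g : MulAut E)⁻¹ := by group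
      _ = x := h
  · intro h
    apply hgg
    apply hL
    right
    apply Subtype.ext
    simp only [Subgroup.coe_mul, Subgroup.coe_inv, hx']
    calc (g : MulAut E) * (g : MulAut E) * x * ((g : MulAut E) * (g : MulAut E))⁻¹
        = (g : MulAut E) * ((g : MulAut E) * x * (g : MulAut E)⁻¹) * (g : MulAut E)⁻¹ := by group
      _ = x * x := h

end basic

end Cfsg.Agent.H59.Sq

#print axioms Cfsg.Agent.H59.Sq.aut_commute
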