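import Cfsg.Agent.H93.U33Defs
import Cfsg.Agent.H59.AffLine

set_option autoImplicit false

/-! Piece U-SOLVA of S3670 (helper93): a solvable group of order `56` with an irreducible
character of degree `7` (the affine group of the line over the field with `8` elements). -/

namespace Cfsg.Agent.H59.U33

theorem solvA : Cfsg.Agent.H93.U33.StmtSolvA := Cfsg.Agent.H59.AffLine.solvA

example : Cfsg.Agent.H93.U33.StmtSolvA := solvA

end Cfsg.Agent.H59.U33
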