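import Cfsg.Agent.H93.U33Defs
import Cfsg.Agent.H59.AffTri

set_option autoImplicit false

/-! Piece U-SOLVB of S3670 (helper93): a solvable group of order `108` with an irreducible
character of degree `6` (upper triangular affine maps of the plane over `ZMod 3`). -/

namespace Cfsg.Agent.H59.U33

theorem solvB : Cfsg.Agent.H93.U33.StmtSolvB := Cfsg.Agent.H59.AffTri.solvB

example : Cfsg.Agent.H93.U33.StmtSolvB := solvB

end Cfsg.Agent.H59.U33
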